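import Cfsg.Agent.H7.AschSubfield

/-! Bridge for the residual classes in dimension four: forms and fields of definition. -/

set_option autoImplicit false
set_option linter.unusedSectionVars false
set_option linter.unusedSimpArgs false
set_option linter.unusedVariables false

namespace Cfsg.Agent.H9.B4
open Matrix Cfsg.Geo
open scoped MatrixGroups

abbrev M4 (F : Type*) := Matrix (Fin 4) (Fin 4) F
abbrev G4 (F : Type*) [Field F] := GL (Fin 4) F
abbrev MS {F : Type*} [Field F] (P : Subgroup (G4 F)) := P ⧸ (scalars (Fin 4) F).subgroupOf P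

variable {F : Type*} [Field F] {H P : Subgroup (G4 F)}

/-- `P` fixes a non-zero bilinear form -/
def SDF (P : Subgroup (G4 F)) : Prop :=
  ∃ T : M4 F, T ≠ 0 ∧ ∀ g ∈ P, H7.tw (RingHom.id F) T g = T

theorem form_of_sdf [Fintype F] (hP : H7.Irr P) (h : SDF P) :
    (∃ Q, IsNondegenerateQuadraticForm Q ∧ FixesQuadForm (matrixSet P) Q) ∨
    ∃ f, IsSymplecticForm f ∧ FixesForm (matrixSet P) f := by
  obtain ⟨T, T0, hT⟩ := h
  obtain ⟨T, T0, hT, hs⟩ := H7.exists_sym_or_skew T0 hT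
  have hd := hP.det_gram_ne_zero _ T0 fun A h => ⟨1, by rw [hT A h, one_smul]⟩
  have fx : FixesForm (matrixSet P) (H7.gform (RingHom.id F) T) := by
    rintro _ ⟨A, h, rfl⟩ u v
    exact (H7.gform_tw _ _ _ _ _).trans (by rw [hT A h])
  by_cases h2 : (2 : F) = 0
  · have neg : ∀ x : F, -x = x := fun x => by linear_combination (-x) * h2
    have hs' : Tᵀ = T := hs.elim id fun e => by rw [e]; ext i j; exact neg _
    have sy := H7.isSymmetricForm_gform hd hs'
    refine Or.inr ⟨_, H7.isSymplecticForm_gform hd (by rw [hs']; ext i j; exact (neg _).symm)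
      fun i => ?_, fx⟩
    rw [← H7.gform_single (RingHom.id F) T i i]
    refine hP.eq_zero_of_semilinear (by simp) h2 (φ := fun v => H7.gform (RingHom.id F) T v v)
      (fun u v => ?_) (fun c v => ?_) (fun g hg v hv => ?_) _
    · rw [sy.bilinear.add_left, sy.bilinear.add_right, sy.bilinear.add_right, sy.symm v u]
      linear_combination (H7.gform (RingHom.id F) T u v) * h2
    · rw [sy.bilinear.smul_left, sy.bilinear.smul_right]; ring
    · exact (fx _ ⟨g, hg, rfl⟩ v v).trans hv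
  rcases hs with hs | hs
  · refine Or.inl ⟨_, H7.isQuad_diag (H7.isSymmetricForm_gform hd hs) h2, ?_⟩
    intro s hs v
    exact fx s hs v v
  · refine Or.inr ⟨_, H7.isSymplecticForm_gform hd hs fun i => ?_, fx⟩
    have : T i i = -T i i := congrFun (congrFun hs i) i
    exact (mul_eq_zero.1 (show 2 * T i i = 0 by linear_combination this)).resolve_left h2

theorem sep {A : Type*} [Ring A] [Algebra F A] (f g : A →ₐ[F] M4 F) (hf : Function.Surjective f)
    (hg : Function.Surjective g) :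
    (∃ x, f x = 1 ∧ g x = 0) ∨ ∃ T : M4 F, T ≠ 0 ∧ ∀ x, g x * T = T * f x := by
  choose s hs using hg
  choose u hu using hf
  by_cases h : ∀ x, g x = 0 → f x = 0
  · right
    have h' : ∀ x y, g x = g y → f x = f y := fun x y e => by
      rw [← sub_eq_zero, ← map_sub]; exact h _ (by rw [map_sub, e, sub_self])
    obtain ⟨i0, k, j0, hk⟩ : ∃ i k j, f (s (single 0 i 1)) k j ≠ 0 := by
      by_contra! k
      have k' : ∀ i, f (s (single 0 i 1)) = 0 := fun i => Matrix.ext (k i)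
      have := h' (∑ i, s (single i 0 1) * s (single 0 i 1)) 1 (by
        simp only [map_sum, map_mul, hs, single_mul_single_same, mul_one, map_one]
        exact sum_single_one)
      simp [k'] at this
    refine ⟨of fun i j => f (s (single 0 i 1)) k j, fun e => hk (congrFun (congrFun e i0) j0),
      fun x => ?_⟩
    ext i j
    have := h' (∑ l, g x i l • s (single 0 l 1)) (s (single 0 i 1) * x) (by
      simp only [map_sum, map_smul, map_mul, hs]
      ext a b
      simp only [Matrix.sum_apply, Matrix.smul_apply, single_apply, mul_apply, smul_eq_mul]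
      by_cases ha : 0 = a <;> simp [ha])
    have := congrFun (congrFun this k) j
    simpa [map_sum, Matrix.sum_apply, mul_apply] using this
  · left
    push Not at h
    obtain ⟨x, hx, hx'⟩ := h
    obtain ⟨i, j, hij⟩ := H7.exists_entry_ne_zero hx'
    refine ⟨∑ r, u (single r i 1) * x * u (single j r (f x i j)⁻¹), ?_, by simp [map_sum, hx]⟩
    simp only [map_sum, map_mul, hu, single_mul_mul_single, one_mul, mul_inv_cancel₀ hij]
    exact sum_single_one

theorem surj {Γ : Type*} [Group Γ] (ρ : Γ →* M4 F)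
    (h : ∀ X, X ∈ Submodule.span F (Set.range ρ)) :
    Function.Surjective (MonoidAlgebra.lift F (M4 F) Γ ρ) := fun X => by
  induction h X using Submodule.span_induction with
  | mem x hx => obtain ⟨g, rfl⟩ := hx; exact ⟨MonoidAlgebra.of F Γ g, by simp⟩
  | zero => exact ⟨0, map_zero _⟩
  | add x y _ _ hx hy =>
    obtain ⟨a, rfl⟩ := hx; obtain ⟨b, rfl⟩ := hy; exact ⟨a + b, map_add _ _ _⟩
  | smul c x _ hx => obtain ⟨a, rfl⟩ := hx; exact ⟨c • a, map_smul _ _ _⟩

/-- the twisted representation -/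
def r1 (P : Subgroup (G4 F)) (φ : F →+* F) : P →* M4 F :=
  φ.mapMatrix.toMonoidHom.comp ((Units.coeHom _).comp P.subtype)

/-- the twisted dual representation -/
def r2 (P : Subgroup (G4 F)) (φ : F →+* F) : P →* M4 F where
  toFun g := (((g.1⁻¹ : G4 F) : M4 F).map φ)ᵀ
  map_one' := by simp
  map_mul' a b := by simp [Matrix.map_mul]

theorem span_tw [Finite F] (hP : H7.AbsIrr P) (φ : F →+* F) (X : M4 F) :
    X ∈ Submodule.span F (Set.range (r1 P φ)) ∧ X ∈ Submodule.span F (Set.range (r2 P φ)) := by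
  have hs := Finite.surjective_of_injective φ.injective
  have key : ∀ Y : M4 F, Y.map φ ∈ Submodule.span F (Set.range (r1 P φ)) ∧
      (Y.map φ)ᵀ ∈ Submodule.span F (Set.range (r2 P φ)) := fun Y => by
    have hY : Y ∈ Submodule.span F (matrixSet P) := hP.mem_span Y
    induction hY using Submodule.span_induction with
    | mem x hx =>
      obtain ⟨g, hg, rfl⟩ := hx
      exact ⟨Submodule.subset_span ⟨⟨g, hg⟩, rfl⟩,
        Submodule.subset_span ⟨⟨g⁻¹, P.inv_mem hg⟩, by simp [r2]⟩⟩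
    | zero => simp
    | add x y _ _ hx hy =>
      rw [Matrix.map_add _ (map_add φ), transpose_add]
      exact ⟨add_mem hx.1 hy.1, add_mem hx.2 hy.2⟩
    | smul c x _ hx =>
      rw [H7.map_smul_ringHom, transpose_smul]
      exact ⟨Submodule.smul_mem _ _ hx.1, Submodule.smul_mem _ _ hx.2⟩
  choose ψ hψ using hs
  have e : ∀ Y : M4 F, (Y.map ψ).map φ = Y := fun Y => by ext i j; exact hψ _
  exact ⟨e X ▸ (key (X.map ψ)).1, by simpa [e] using (key (Xᵀ.map ψ)).2⟩

theorem trace_of_int {X Y T : M4 F} (hT : T.det ≠ 0) (h : X * T = T * Y) : X.trace = Y.trace := by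
  rw [← mul_nonsing_inv_cancel_right T X hT.isUnit, h, trace_mul_cycle,
    nonsing_inv_mul _ hT.isUnit, one_mul]

theorem dich [Finite F] (hP : H7.AbsIrr P) (φ : F →+* F)
    (h : ∀ g ∈ P, φ ((g : M4 F).trace + ((g⁻¹ : G4 F) : M4 F).trace) =
      (g : M4 F).trace + ((g⁻¹ : G4 F) : M4 F).trace) :
    SDF P ∨ (∀ g ∈ P, φ (g : M4 F).trace = (g : M4 F).trace) ∨
      ∃ T : M4 F, T ≠ 0 ∧ ∀ g ∈ P, H7.tw φ T g = T := by
  let L := fun ρ : P →* M4 F => MonoidAlgebra.lift F (M4 F) P ρ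
  have s1 := fun φ => surj _ fun X => (span_tw hP φ X).1
  have s2 := fun φ => surj _ fun X => (span_tw hP φ X).2
  have tw : ∀ (φ : F →+* F) (T : M4 F), (∀ x, L (r2 P φ) x * T = T * L (r1 P (RingHom.id F)) x) →
      ∀ g ∈ P, H7.tw φ Tᵀ g = Tᵀ := fun φ T hT g hg => by
    have := hT (MonoidAlgebra.of F P ⟨g, hg⟩)
    simp only [L, MonoidAlgebra.lift_of] at this
    change (((g⁻¹ : G4 F) : M4 F).map φ)ᵀ * T = T * (g : M4 F) at this
    rw [H7.tw, ← transpose_mul, ← this, transpose_mul, transpose_transpose, mul_assoc,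
      ← Matrix.map_mul, Units.inv_mul]
    simp
  rcases sep _ _ (s1 (RingHom.id F)) (s2 (RingHom.id F)) with ⟨a, a1, a2⟩ | ⟨T, T0, hT⟩
  swap
  · exact Or.inl ⟨Tᵀ, fun e => T0 (transpose_eq_zero.1 e), tw _ T hT⟩
  rcases sep _ _ (s1 (RingHom.id F)) (s2 φ) with ⟨b, b1, b2⟩ | ⟨T, T0, hT⟩
  swap
  · exact Or.inr (Or.inr ⟨Tᵀ, fun e => T0 (transpose_eq_zero.1 e), tw _ T hT⟩)
  rcases sep _ _ (s1 (RingHom.id F)) (s1 φ) with ⟨c, c1, c2⟩ | ⟨T, T0, hT⟩
  swap
  · have hT' : ∀ g ∈ P, (g : M4 F).map φ * T = T * g := fun g hg => by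
      have := hT (MonoidAlgebra.of F P ⟨g, hg⟩)
      simp only [MonoidAlgebra.lift_of] at this
      exact this
    have hd := H7.det_ne_zero_of_ker_invariant hP.1 T0 fun g hg v hv => by
      rw [mulVec_mulVec, ← hT' g hg, ← mulVec_mulVec, hv, mulVec_zero]
    exact Or.inr (Or.inl fun g hg => by
      rw [AddMonoidHom.map_trace φ]; exact trace_of_int hd (hT' g hg))
  exfalso
  have key : ∀ x, (L (r1 P φ) x).trace + (L (r2 P φ) x).trace =
      (L (r1 P (RingHom.id F)) x).trace + (L (r2 P (RingHom.id F)) x).trace := fun x => by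
    induction x using MonoidAlgebra.induction_on with
    | of g =>
      simp only [L, MonoidAlgebra.lift_of]
      have := h g.1 g.2
      rw [map_add, AddMonoidHom.map_trace φ, AddMonoidHom.map_trace φ] at this
      change (g.1.1.map φ).trace + ((g.1⁻¹.1.map φ)ᵀ).trace =
        g.1.1.trace + (((g.1⁻¹ : G4 F) : M4 F)ᵀ).trace
      rw [trace_transpose, trace_transpose]
      exact this
    | add x y hx hy => simp only [map_add, trace_add]; linear_combination hx + hy
    | smul c x hx => simp only [map_smul, trace_smul, smul_eq_mul]; linear_combination c * hx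
  obtain ⟨u, hu⟩ := s1 (RingHom.id F) (single 0 0 1)
  have := key (u * a * b * c)
  simp only [L, map_mul, a1, a2, b1, b2, c1, c2, hu] at this
  simp at this

variable [Fintype F] {p : ℕ}

theorem card_le (hc : IsResidualCore H P) [Fact p.Prime] [CharP F p] {n : ℕ} (hn : n ≠ 0)
    (e : ∀ A ∈ P, (A : M4 F).trace ^ p ^ n = (A : M4 F).trace) : Fintype.card F ≤ p ^ n := by
  obtain ⟨τ, hτ⟩ := H7.exists_powHom (F := F) (p := p) (k := n)
  by_contra! k
  obtain ⟨a, ha⟩ := H7.exists_pow_ne (Nat.one_lt_pow hn (Fact.out : p.Prime).one_lt) k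
  exact hc.no_subfield _ (H7.fixField_ne_top ⟨a, by rwa [hτ]⟩)
    ((H7.absIrr_iff.2 hc.absIrred).realisableOver _ fun A a => H7.mem_fixField.2 (by rw [hτ, e A a]))

theorem card_eq (hc : IsResidualCore H P) [Fact p.Prime] [CharP F p]
    (e : ∀ A ∈ P, (A : M4 F).trace ^ p = (A : M4 F).trace) : Fintype.card F = p := by
  refine le_antisymm (by simpa using card_le hc (p := p) one_ne_zero (by simpa using e)) ?_
  obtain ⟨n, -, hn⟩ := FiniteField.card F p
  rw [hn]
  exact Nat.le_self_pow n.ne_zero p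

theorem exists_unitary {q : ℕ} {σ : F →+* F} (hF : Fintype.card F = q ^ 2) (hσ : ∀ x, σ x = x ^ q)
    (hP : H7.Irr P) {T : M4 F} (h0 : T ≠ 0) (h : ∀ A ∈ P, H7.tw σ T A = T) :
    ∃ (σ : F ≃+* F) (f : _), IsUnitaryForm σ f ∧ FixesForm (matrixSet P) f := by
  have h1 := H7.qHom_invol hF hσ
  obtain ⟨a, ha⟩ := H7.qHom_ne hF hσ
  obtain ⟨T, h0, h, e⟩ := H7.exists_herm h1 ⟨a, ha⟩ h0 h
  let τ : F ≃+* F := RingEquiv.ofRingHom σ σ (RingHom.ext h1) (RingHom.ext h1)
  refine ⟨τ, _, H7.isUnitaryForm_gform (fun k => ha (DFunLike.congr_fun k a)) h1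
    (hP.det_gram_ne_zero σ h0 fun A k => ⟨1, by rw [h A k, one_smul]⟩) e, ?_⟩
  rintro _ ⟨A, k, rfl⟩ u v
  exact (H7.gform_tw σ _ _ _ _).trans (by rw [h A k]; rfl)

theorem trace_tw {σ : F →+* F} {T : M4 F} (hT : T.det ≠ 0) {g : G4 F} (h : H7.tw σ T g = T) :
    σ (g : M4 F).trace = ((g⁻¹ : G4 F) : M4 F).trace := by
  rw [AddMonoidHom.map_trace σ, ← trace_transpose ((g⁻¹ : G4 F) : M4 F)]
  refine (trace_of_int hT ?_).symm
  conv_lhs => rw [← h, H7.tw, ← mul_assoc, ← mul_assoc, ← transpose_mul, Units.mul_inv]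
  simp

/-- all `tr g + tr g⁻¹` lie in the prime field -/
def TT (p : ℕ) (P : Subgroup (G4 F)) : Prop := ∀ g ∈ P,
  ((g : M4 F).trace + ((g⁻¹ : G4 F) : M4 F).trace) ^ p = (g : M4 F).trace + ((g⁻¹ : G4 F) : M4 F).trace

theorem sizes (hc : IsResidualCore H P) [Fact p.Prime] [CharP F p] (hs : ¬ SDF P) (hT : TT p P) :
    Fintype.card F = p ∨ (Fintype.card F = p ^ 2 ∧
      (∃ (σ : F ≃+* F) (f : _), IsUnitaryForm σ f ∧ FixesForm (matrixSet P) f) ∧
      ∀ g ∈ P, (g : M4 F).trace ^ p = ((g⁻¹ : G4 F) : M4 F).trace) := by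
  have ha := H7.absIrr_iff.2 hc.absIrred
  rcases dich ha (frobenius F p) hT with h | h | ⟨T, T0, h⟩
  · exact absurd h hs
  · exact Or.inl (card_eq hc h)
  have hd := ha.1.det_gram_ne_zero _ T0 fun A k => ⟨1, by rw [h A k, one_smul]⟩
  have t : ∀ g ∈ P, (g : M4 F).trace ^ p = ((g⁻¹ : G4 F) : M4 F).trace := fun g hg =>
    trace_tw hd (h g hg)
  have h2 := card_le hc (p := p) two_ne_zero fun g hg => by
    rw [pow_two, pow_mul, t g hg, t _ (P.inv_mem hg), inv_inv]
  obtain ⟨⟨n, n0⟩, hp, hn⟩ := FiniteField.card F p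
  rw [hn, Nat.pow_le_pow_iff_right hp.one_lt] at h2
  obtain rfl | rfl : n = 1 ∨ n = 2 := by change n ≤ 2 at h2; omega
  · exact Or.inl (by simpa using hn)
  · exact Or.inr ⟨hn, exists_unitary hn (fun _ => rfl) ha.1 T0 h, t⟩

/-! ### congruences -/

section
variable {K : Type*} [Field K] [IsAlgClosed K] [Fact p.Prime] [CharP K p] {κ μ : K}

theorem exists_root (f : Polynomial K) (h : f.degree ≠ 0) : ∃ a, f.eval a = 0 := IsAlgClosed.exists_root f h

theorem char_of_mod {q n r : ℕ} (hq : q = p ^ n) (hr : r.Prime) (h : q % r = 0) : (r : K) = 0 := by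
  have := (Nat.prime_dvd_prime_iff_eq hr Fact.out).1 (hr.dvd_of_dvd_pow (hq ▸ Nat.dvd_of_mod_eq_zero h))
  subst this; exact CharP.cast_eq_zero K r

theorem frob7 {φ : K →+* K} {q n : ℕ} (hq : q = p ^ n) (hφ : ∀ x, φ x = x ^ q) (h : κ + μ = -1)
    (km : κ * μ = 2) (ne : κ ≠ μ) : ((q % 7 = 1 ∨ q % 7 = 2 ∨ q % 7 = 4) ∧ φ κ = κ) ∨
      ((q % 7 = 3 ∨ q % 7 = 5 ∨ q % 7 = 6) ∧ φ κ = μ) := by
  obtain ⟨ζ, hζ⟩ : ∃ ζ : K, ζ ^ 6 + ζ ^ 5 + ζ ^ 4 + ζ ^ 3 + ζ ^ 2 + ζ + 1 = 0 := by
    have := exists_root (K := K) (Polynomial.X ^ 6 + Polynomial.X ^ 5 + Polynomial.X ^ 4 +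
      Polynomial.X ^ 3 + Polynomial.X ^ 2 + Polynomial.X + 1) (by
        rw [show Polynomial.degree _ = 6 by compute_degree!]; decide)
    simp only [Polynomial.eval_add, Polynomial.eval_pow, Polynomial.eval_X, Polynomial.eval_one] at this
    exact this
  have z7 : ζ ^ 7 = 1 := by linear_combination (ζ - 1) * hζ
  have e : φ ζ = ζ ^ (q % 7) := by rw [hφ, pow_eq_pow_mod _ z7]
  have h0 : q % 7 ≠ 0 := fun k => by
    have : (7 : K) = 0 := by exact_mod_cast char_of_mod (K := K) hq (by decide) k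
    exact ne (sub_eq_zero.1 (pow_eq_zero_iff two_ne_zero |>.1
      (by linear_combination (κ + μ - 1) * h - 4 * km - this)))
  have hm : μ = -1 - κ := by linear_combination h
  have k : κ = ζ + ζ ^ 2 + ζ ^ 4 ∨ κ = -1 - (ζ + ζ ^ 2 + ζ ^ 4) := by
    refine (mul_eq_zero.1 (show (κ - (ζ + ζ ^ 2 + ζ ^ 4)) * (κ - (-1 - (ζ + ζ ^ 2 + ζ ^ 4))) = 0 from ?_)).imp
      sub_eq_zero.1 sub_eq_zero.1
    subst hm; grind
  have := Nat.mod_lt q (show 0 < 7 by decide)
  subst hm
  clear hφ km ne h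
  generalize q % 7 = j at *
  interval_cases j <;> rcases k with rfl | rfl <;> simp [e] <;> grind

theorem frob3 {φ : K →+* K} {q n : ℕ} {d : K} (hq : q = p ^ n) (hφ : ∀ x, φ x = x ^ q) (h : d ^ 2 = -3)
    (h0 : d ≠ 0) : (q % 3 = 1 ∧ φ d = d) ∨ (q % 3 = 2 ∧ φ d = -d) := by
  obtain ⟨ζ, hζ⟩ : ∃ ζ : K, ζ ^ 2 + ζ + 1 = 0 := by
    have := exists_root (K := K) (Polynomial.X ^ 2 + Polynomial.X + 1) (by
      rw [show Polynomial.degree _ = 2 by compute_degree!]; decide)
    simp only [Polynomial.eval_add, Polynomial.eval_pow, Polynomial.eval_X, Polynomial.eval_one] at this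
    exact this
  have z3 : ζ ^ 3 = 1 := by linear_combination (ζ - 1) * hζ
  have e : φ ζ = ζ ^ (q % 3) := by rw [hφ, pow_eq_pow_mod _ z3]
  have h0 : q % 3 ≠ 0 := fun k => by
    have : (3 : K) = 0 := by exact_mod_cast char_of_mod (K := K) hq Nat.prime_three k
    exact h0 (pow_eq_zero_iff two_ne_zero |>.1 (by linear_combination h - this))
  have k : d = 1 + 2 * ζ ∨ d = -(1 + 2 * ζ) := sq_eq_sq_iff_eq_or_eq_neg.1 (by grind)
  have := Nat.mod_lt q (show 0 < 3 by decide)
  have a2 : φ 2 = 2 := map_ofNat φ 2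
  clear hφ h
  generalize q % 3 = j at *
  interval_cases j <;> rcases k with rfl | rfl <;> simp [e, a2] <;> grind

end

section
variable [Fact p.Prime] [CharP F p] {a b : F}

theorem cast_ne {r : ℕ} (hr : r.Prime) (h : p ≠ r) : (r : F) ≠ 0 := fun e =>
  h ((Nat.prime_dvd_prime_iff_eq Fact.out hr).1 ((CharP.cast_eq_zero_iff F p r).1 e))

theorem cong7 (h7 : p ≠ 7) (h1 : a + b = 1) (h2 : a * b = 2) :
    ((p % 7 = 1 ∨ p % 7 = 2 ∨ p % 7 = 4) ∧ a ^ p = a ∧ a ≠ b) ∨
      ((p % 7 = 3 ∨ p % 7 = 5 ∨ p % 7 = 6) ∧ a ^ p = b ∧ a ≠ b) := by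
  let ι := algebraMap F (AlgebraicClosure F)
  have ne : a ≠ b := by
    rintro rfl
    exact cast_ne (F := F) (by decide) h7 (by push_cast; linear_combination (2 * a + 1) * h1 - 4 * h2)
  have := frob7 (K := AlgebraicClosure F) (κ := ι (a - 1)) (μ := ι (b - 1))
    (φ := frobenius _ p) (pow_one p).symm (fun _ => rfl)
    (by rw [← map_add, ← map_one ι, ← map_neg]; congr 1; linear_combination h1)
    (by rw [← map_mul, ← map_ofNat ι 2]; congr 1; linear_combination h2 - h1)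
    (fun e => ne (by simpa using ι.injective e))
  have e : frobenius _ p (ι (a - 1)) = ι (a ^ p - 1) := by
    rw [frobenius_def, ← map_pow, sub_pow_char, one_pow]
  rw [e] at this
  exact this.imp (fun h => ⟨h.1, by simpa using ι.injective h.2, ne⟩)
    fun h => ⟨h.1, by simpa using ι.injective h.2, ne⟩

theorem cong3 (h2 : p ≠ 2) (h3 : p ≠ 3) (h1 : a + b = -1) (h7 : a * b = 7) :
    (p % 6 = 1 ∧ a ^ p = a ∧ a ≠ b) ∨ (p % 6 = 5 ∧ a ^ p = b ∧ a ≠ b) := by
  let ι := algebraMap F (AlgebraicClosure F)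
  have t3 : (3 : F) ≠ 0 := by simpa using cast_ne (F := F) Nat.prime_three h3
  have t2 : (2 : F) ≠ 0 := by simpa using cast_ne (F := F) Nat.prime_two h2
  obtain ⟨d, hd⟩ : ∃ d, a - b = 3 * d := ⟨(a - b) / 3, by field_simp⟩
  have d2 : d ^ 2 = -3 := mul_left_cancel₀ (pow_ne_zero 2 t3) (by
    linear_combination (-(a - b) - 3 * d) * hd + (a + b - 1) * h1 - 4 * h7)
  have d0 : d ≠ 0 := by rintro rfl; exact t3 (by linear_combination d2)
  have ne : a ≠ b := by rintro rfl; exact mul_ne_zero t3 d0 (by linear_combination -hd)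
  have := frob3 (K := AlgebraicClosure F) (d := ι d) (φ := frobenius _ p) (pow_one p).symm
    (fun _ => rfl) (by rw [← map_pow, d2, map_neg, map_ofNat]) (by simpa using d0)
  rw [frobenius_def, ← map_pow, ← map_neg] at this
  have ho := (Fact.out : p.Prime).eq_two_or_odd.resolve_left h2
  have e : 2 * a ^ p = -1 + 3 * d ^ p := by
    have := congrArg (frobenius F p) (show 2 * a = -1 + 3 * d by linear_combination h1 + hd)
    rwa [map_mul, map_add, map_mul, map_neg, map_one, map_ofNat, map_ofNat] at this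
  rcases this with ⟨k, k'⟩ | ⟨k, k'⟩
  · have k' := ι.injective k'
    exact Or.inl ⟨by omega, mul_left_cancel₀ t2 (by linear_combination e + 3 * k' - h1 - hd), ne⟩
  · have k' := ι.injective k'
    exact Or.inr ⟨by omega, mul_left_cancel₀ t2 (by linear_combination e + 3 * k' - h1 + hd), ne⟩

end

end Cfsg.Agent.H9.B4
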