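import Cfsg.Agent.H8.M3B

/-! The simple group of order 168: generators, Bruhat decomposition, automorphisms. -/

set_option autoImplicit false
set_option linter.unusedSectionVars false
set_option linter.unusedSimpArgs false
set_option linter.unusedVariables false

namespace Cfsg.Agent.H9.B4
open Subgroup MulAction H8.M3

variable {G : Type*} [Group G] [Finite G]

/-- generators of `L₂(7)` -/
structure L27 (g n t : G) : Prop where
  g7 : g ^ 7 = 1
  g1 : g ≠ 1
  n3 : n ^ 3 = 1
  ng : n * g = g ^ 2 * n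
  t2 : t * t = 1
  tn : t * n = n ^ 2 * t
  tg : (t * g) ^ 3 = 1
  bru : ∀ x, ∃ (i : Fin 7) (j : Fin 3), x = g ^ i.1 * n ^ j.1 ∨
    ∃ k : Fin 7, x = g ^ i.1 * n ^ j.1 * t * g ^ k.1
  aut : ∀ θ : MulAut G, ∃ y, (∀ x, θ x = y * x * y⁻¹) ∨ θ g = y * g⁻¹ * y⁻¹

theorem l27 (hG : SN G) (h : Nat.card G = 168) : ∃ g n t : G, L27 g n t := by
  have : Fact (Nat.Prime 7) := ⟨by norm_num⟩
  have : Fact (Nat.Prime 3) := ⟨by norm_num⟩
  obtain ⟨g, hg⟩ := exists_prime_orderOf_dvd_card' (G := G) 7 (by rw [h]; norm_num)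
  have g7 : g ^ 7 = 1 := hg ▸ pow_orderOf_eq_one g
  have g1 : g ≠ 1 := by rintro rfl; simp at hg
  have cU : Nat.card (zpowers g) = 7 := by rw [Nat.card_zpowers, hg]
  have iU : (zpowers g).index = 24 := by
    have := (zpowers g).card_mul_index; rw [cU, h] at this; omega
  obtain ⟨U, hU⟩ : ∃ U : Sylow 7 G, (U : Subgroup G) = zpowers g :=
    ⟨IsPGroup.toSylow (P := zpowers g) (IsPGroup.of_card (n := 1) cU) (by rw [iU]; norm_num), rfl⟩
  have gU : g ∈ (U : Subgroup G) := hU ▸ mem_zpowers g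
  have c8 : Nat.card (Sylow 7 G) = 8 := by
    have h1 := card_sylow_modEq_one 7 G
    have h2 := U.card_dvd_index
    rw [hU, iU] at h2
    have h3 : Nat.card (Sylow 7 G) ≠ 1 := fun e => by
      have := (Nat.card_eq_one_iff_unique.1 e).1
      rcases hG.normal_cases _ U.normal_of_subsingleton with e | e
      · exact g1 (mem_bot.1 (e ▸ gU))
      · rw [← hU, e, index_top] at iU; omega
    have := Nat.le_of_dvd (by norm_num) h2
    unfold Nat.ModEq at h1
    generalize Nat.card (Sylow 7 G) = m at *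
    interval_cases m <;> omega
  have c21 : ∀ S : Sylow 7 G, Nat.card (stabilizer G S) = 21 := fun S => by
    have := (stabilizer G S).card_mul_index
    rw [h, S.stabilizer_eq_normalizer, ← S.card_eq_index_normalizer, c8] at this
    rw [S.stabilizer_eq_normalizer]; omega
  have fU : ∀ i : ℕ, g ^ i • U = U := fun i =>
    Sylow.smul_eq_iff_mem_normalizer.2 (le_normalizer (pow_mem gU i))
  have free : ∀ S : Sylow 7 G, S ≠ U → ∀ i : ℕ, g ^ i • S = S → i % 7 = 0 := fun S hS i e => by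
    by_contra c
    obtain ⟨m, hm⟩ := exists_pow_eq_self_of_coprime (x := g) (n := i) (by
      rw [hg, Nat.coprime_comm, Nat.Prime.coprime_iff_not_dvd (by norm_num)]; omega)
    have e1 : g ∈ stabilizer G S := hm ▸ pow_mem (show g ^ i ∈ stabilizer G S from e) m
    rw [S.stabilizer_eq_normalizer] at e1
    have e2 : g ∈ (U : Subgroup G) ⊓ S := U.2.inf_normalizer_sylow S ▸ ⟨gU, e1⟩
    exact hS (Sylow.ext (U.3 S.2 (by rw [hU]; exact zpowers_le.2 e2.2)))
  have : Nontrivial (Sylow 7 G) := Finite.one_lt_card_iff_nontrivial.1 (by omega)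
  obtain ⟨T, hT⟩ := exists_ne U
  obtain ⟨pt, hpt⟩ : ∃ pt : ℕ → Sylow 7 G, ∀ i, pt i = g ^ i • T := ⟨_, fun _ => rfl⟩
  have pt0 : pt 0 = T := by simp [hpt]
  have gpt : ∀ k i, g ^ k • pt i = pt (k + i) := fun k i => by rw [hpt, hpt, pow_add, mul_smul]
  have g1pt : ∀ i, g • pt i = pt (i + 1) := fun i => by rw [add_comm, ← gpt, pow_one]
  have g1U : g • U = U := by simpa using fU 1
  have ptU : ∀ i, pt i ≠ U := fun i e => hT (by
    rw [hpt, ← fU i] at e; exact smul_left_cancel _ e)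
  have pte : ∀ i j, pt i = pt j ↔ i % 7 = j % 7 := fun i j => by
    refine ⟨fun e => ?_, fun e => by rw [hpt, hpt, pow_eq_pow_mod i g7, e, ← pow_eq_pow_mod j g7]⟩
    have := free T hT (6 * i + j) (by
      rw [← hpt, ← gpt, ← e, gpt, hpt, pow_eq_pow_mod _ g7, show (6 * i + i) % 7 = 0 by omega]; simp)
    omega
  have cov : ∀ S, S ≠ U → ∃ i < 7, S = pt i := fun S hS => by
    have : Function.Bijective (fun o : Option (Fin 7) => o.elim U fun i => pt i) :=
      Function.Injective.bijective_of_nat_card_le (by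
        rintro (_ | i) (_ | j) e
        · rfl
        · exact absurd e.symm (ptU _)
        · exact absurd e (ptU _)
        · have := (pte _ _).1 e
          congr 1; ext; omega) (by simp [c8])
    obtain ⟨_ | i, e⟩ := this.2 S
    exacts [absurd e.symm hS, ⟨i, i.2, e.symm⟩]
  have two : ∀ S S' : Sylow 7 G, S ≠ S' → ∃ y : G, y • U = S ∧ y • T = S' := fun S S' e => by
    obtain ⟨y, rfl⟩ := exists_smul_eq G U S
    obtain ⟨k, -, hk⟩ := cov (y⁻¹ • S') fun c => e (by rw [← c, smul_inv_smul])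
    exact ⟨y * g ^ k, by rw [mul_smul, fU], by rw [mul_smul, ← hpt, ← hk, smul_inv_smul]⟩
  have c3 : Nat.card (stabilizer (stabilizer G U) T) = 3 := by
    have := (stabilizer (stabilizer G U) T).card_mul_index
    rw [c21, index_stabilizer, show orbit (stabilizer G U) T = {U}ᶜ from ?_, Set.ncard_compl,
      c8, Set.ncard_singleton] at this
    · omega
    ext S
    constructor
    · rintro ⟨x, rfl⟩ e
      exact hT (smul_left_cancel x.1 (e.trans x.2.symm))
    · intro e
      obtain ⟨i, -, rfl⟩ := cov S e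
      exact ⟨⟨_, fU i⟩, (hpt i).symm⟩
  have d3 : ∀ d : G, d • U = U → d • T = T → d ^ 3 = 1 := fun d a b => by
    have := pow_card_eq_one' (G := stabilizer (stabilizer G U) T) (x := ⟨⟨d, a⟩, b⟩)
    rw [c3] at this
    exact congrArg (fun x => x.1.1) this
  have nU : ∀ x : G, x • U = U → ∃ m < 7, x * g = g ^ m * x := fun x a => by
    have := (mem_normalizer_iff.1 (Sylow.smul_eq_iff_mem_normalizer.1 a) g).1 gU
    change _ ∈ (U : Subgroup G) at this
    rw [hU, ← mem_powers_iff_mem_zpowers] at this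
    obtain ⟨m, hm⟩ := this
    exact ⟨m % 7, Nat.mod_lt _ (by norm_num), by
      rw [← pow_eq_pow_mod m g7, show g ^ m = _ from hm]; group⟩
  have cp : ∀ (x : G) m, x * g = g ^ m * x → ∀ i, x * g ^ i = g ^ (m * i) * x := fun x m e i => by
    induction i with
    | zero => simp
    | succ i ih => rw [pow_succ, ← mul_assoc, ih, mul_assoc, e, mul_add, mul_one, pow_add, mul_assoc]
  obtain ⟨n, nU', nT, ng⟩ : ∃ n : G, n • U = U ∧ n • T = T ∧ n * g = g ^ 2 * n := by
    obtain ⟨x, x1, x2⟩ := SetLike.not_le_iff_exists.1 fun e => g1 (mem_bot.1 (hG.burnside U e ▸ gU))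
    have x3 := Sylow.smul_eq_iff_mem_normalizer.2 x1
    obtain ⟨k, -, hk⟩ := cov (x⁻¹ • T) fun c => hT (by rw [← x3, ← c, smul_inv_smul])
    have y1 : (x * g ^ k) • U = U := by rw [mul_smul, fU, x3]
    have y2 : (x * g ^ k) • T = T := by rw [mul_smul, ← hpt, ← hk, smul_inv_smul]
    have y3 : x * g ^ k * g ≠ g * (x * g ^ k) := fun e => x2 (by
      rw [mem_centralizer_iff]
      intro z hz
      obtain ⟨l, rfl⟩ : z ∈ zpowers g := hU ▸ hz
      have : Commute g x := mul_right_cancel (b := g ^ k) (by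
        rw [mul_assoc, ← e, mul_assoc, mul_assoc, ← pow_succ, ← pow_succ'])
      exact (this.zpow_left l).eq)
    generalize x * g ^ k = y at y1 y2 y3
    obtain ⟨m, m7, hm⟩ := nU y y1
    have y4 : g = g ^ (m * (m * m)) := by
      have : y ^ 3 * g = g ^ (m * (m * m)) * y ^ 3 := by
        rw [pow_three, mul_assoc, mul_assoc, hm, ← mul_assoc y _ y, cp y m hm, ← mul_assoc,
          ← mul_assoc, cp y m hm]; group
      simpa [d3 y y1 y2] using this
    have y5 : 1 % 7 = m * (m * m) % 7 := by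
      have := pow_eq_pow_iff_modEq.1 ((pow_one g).trans y4)
      rwa [hg] at this
    have : m = 1 ∨ m = 2 ∨ m = 4 := by interval_cases m <;> omega
    rcases this with rfl | rfl | rfl
    · exact absurd (by simpa using hm) y3
    · exact ⟨y, y1, y2, hm⟩
    · refine ⟨y * y, by rw [mul_smul, y1, y1], by rw [mul_smul, y2, y2], ?_⟩
      rw [mul_assoc, hm, ← mul_assoc, cp y 4 hm, pow_eq_pow_mod _ g7, mul_assoc]
  have n1 : n ≠ 1 := by
    rintro rfl
    exact g1 (by simpa [pow_two] using ng)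
  have n3 := d3 n nU' nT
  have D3 : ∀ d : G, d • U = U → d • T = T → ∃ j : Fin 3, d = n ^ j.1 := fun d a b => by
    obtain ⟨j, hj⟩ := mem_powers_of_prime_card (G := stabilizer (stabilizer G U) T) c3
      (g := ⟨⟨n, nU'⟩, nT⟩) (g' := ⟨⟨d, a⟩, b⟩) (fun e => n1 (congrArg (fun x => x.1.1) e))
    exact ⟨⟨j % 3, Nat.mod_lt _ (by norm_num)⟩, by
      rw [← pow_eq_pow_mod j n3]; exact (congrArg (fun x => x.1.1) hj).symm⟩
  have npt : ∀ i, n • pt i = pt (2 * i) := fun i => by
    rw [hpt, hpt, ← mul_smul, cp n 2 ng, mul_smul, nT]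
  have n2pt : ∀ i, n ^ 2 • pt i = pt (4 * i) := fun i => by
    rw [pow_two, mul_smul, npt, npt, ← mul_assoc]; rfl
  have npU : ∀ j : ℕ, n ^ j • U = U := fun j => pow_mem (show n ∈ stabilizer G U from nU') j
  have npT : ∀ j : ℕ, n ^ j • T = T := fun j => pow_mem (show n ∈ stabilizer G T from nT) j
  have triv : ∀ x : G, x • U = U → x • T = T → x • pt 1 = pt 1 → x = 1 := fun x a b c => by
    obtain ⟨j, rfl⟩ := D3 x a b
    fin_cases j
    · simp
    · simp [npt, pte] at c
    · simp [n2pt, pte] at c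
  obtain ⟨s, sU, sT⟩ := two T U hT
  have sn : s * n = n ^ 2 * s := by
    obtain ⟨j, hj⟩ := D3 (s * n * s⁻¹) (by
      rw [mul_smul, mul_smul, inv_smul_eq_iff.2 sT.symm, nT, sT])
      (by rw [mul_smul, mul_smul, inv_smul_eq_iff.2 sU.symm, nU', sU])
    fin_cases j
    · exact absurd (by simpa using hj) n1
    swap
    · exact mul_inv_eq_iff_eq_mul.1 hj
    exfalso
    replace hj : s * n = n * s := by simpa [mul_inv_eq_iff_eq_mul] using hj
    have on : orderOf n = 3 := orderOf_eq_prime n3 n1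
    have cD : Nat.card (zpowers n) = 3 := by rw [Nat.card_zpowers, on]
    have iD : (zpowers n).index = 56 := by
      have := (zpowers n).card_mul_index; rw [cD, h] at this; omega
    obtain ⟨D, hD⟩ : ∃ D : Sylow 3 G, (D : Subgroup G) = zpowers n :=
      ⟨IsPGroup.toSylow (P := zpowers n) (IsPGroup.of_card (n := 1) cD) (by rw [iD]; norm_num), rfl⟩
    have nD : n ∈ (D : Subgroup G) := hD ▸ mem_zpowers n
    refine n1 (mem_bot.1 (hG.burnside D (fun x hx => ?_) ▸ nD))
    have fx : ∀ S, n • S = S → S = U ∨ S = T := fun S e => by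
      by_cases c : S = U
      · exact Or.inl c
      obtain ⟨i, i7, rfl⟩ := cov S c
      rw [npt, pte] at e
      exact Or.inr (by rw [← pt0, pte]; omega)
    have x1 : x⁻¹ * n * x ∈ zpowers n := by
      have := (mem_normalizer_iff.1 (inv_mem hx) n).1 nD
      rw [inv_inv] at this
      exact hD ▸ this
    have fx' : ∀ S : Sylow 7 G, n • S = S → x • S = U ∨ x • S = T := fun S e => fx _ (by
      have : x⁻¹ * n * x ∈ stabilizer G S := zpowers_le.2 (show n ∈ stabilizer G S from e) x1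
      rw [mem_stabilizer_iff, mul_smul, mul_smul, inv_smul_eq_iff] at this
      exact this)
    have x2 : Commute n x := by
      rcases fx' U nU' with a | a <;> rcases fx' T nT with b | b
      · exact absurd (smul_left_cancel x (b.trans a.symm)) hT
      · obtain ⟨j, rfl⟩ := D3 x a b
        exact Commute.self_pow _ _
      · obtain ⟨j, hj'⟩ := D3 (s⁻¹ * x) (by rw [mul_smul, a, inv_smul_eq_iff, sU])
          (by rw [mul_smul, b, inv_smul_eq_iff, sT])
        rw [inv_mul_eq_iff_eq_mul.1 hj']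
        exact Commute.mul_right hj.symm (Commute.self_pow _ _)
      · exact absurd (smul_left_cancel x (b.trans a.symm)) hT
    rw [mem_centralizer_iff]
    intro y hy
    obtain ⟨k, rfl⟩ : y ∈ zpowers n := hD ▸ hy
    exact (x2.zpow_left k).eq
  have s2 : s * s = 1 := by
    obtain ⟨j, hj⟩ := D3 (s * s) (by rw [mul_smul, sU, sT]) (by rw [mul_smul, sT, sU])
    have e : s * n ^ j.1 = n ^ j.1 * s := by rw [← hj, mul_assoc]
    fin_cases j
    · simpa using hj
    · exact absurd (by simpa [sn, pow_two] using e) n1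
    · exfalso
      apply n1
      have : s * n ^ 2 = n * s := by
        rw [pow_two, ← mul_assoc, sn, mul_assoc, sn, ← mul_assoc, ← pow_add, pow_succ, n3, one_mul]
      change s * n ^ 2 = n ^ 2 * s at e
      rw [this] at e
      simpa [pow_two] using e
  have nf : ∀ S : Sylow 7 G, s • S ≠ S := fun S e => by
    have := pow_card_eq_one' (G := stabilizer G S) (x := ⟨s, e⟩)
    rw [c21] at this
    have e2 : s ^ 21 = 1 := congrArg Subtype.val this
    rw [show 21 = 2 * 10 + 1 by rfl, pow_succ, pow_mul, pow_two, s2, one_pow, one_mul] at e2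
    exact hT (by rw [← sU, e2, one_smul])
  have sp : ∀ i c, s • pt i = pt c → s • pt (2 * i) = pt (4 * c) := fun i c e => by
    rw [← npt, ← mul_smul, sn, mul_smul, e, n2pt]
  obtain ⟨j, hj⟩ : ∃ j : ℕ, (n ^ j * s) • pt 1 = pt 6 := by
    obtain ⟨c, c7, hc⟩ := cov (s • pt 1) fun e => by
      have := smul_left_cancel s (e.trans sT.symm)
      rw [← pt0, pte] at this; omega
    have a2 := sp _ _ hc
    have a4 := sp _ _ a2
    interval_cases c
    · exact absurd (smul_left_cancel s (hc.trans (pt0.trans sU.symm))) (ptU _)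
    · exact absurd hc (nf _)
    · exact absurd (a4.trans ((pte _ (2 * (2 * 1))).2 rfl)) (nf _)
    · exact ⟨1, by rw [mul_smul, hc, pow_one, npt]⟩
    · exact absurd (a2.trans ((pte _ (2 * 1)).2 rfl)) (nf _)
    · exact ⟨2, by rw [mul_smul, hc, n2pt, pte]⟩
    · exact ⟨0, by simpa using hc⟩
  have snp : ∀ j : ℕ, s * n ^ j = n ^ (2 * j) * s := fun j => by
    induction j with
    | zero => simp
    | succ i ih => rw [pow_succ, ← mul_assoc, ih, mul_assoc, sn, mul_add, mul_one, pow_add, mul_assoc]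
  have t2 : n ^ j * s * (n ^ j * s) = 1 := by
    rw [mul_assoc, ← mul_assoc s, snp, mul_assoc, s2, mul_one, ← pow_add,
      show j + 2 * j = 3 * j by ring, pow_mul, n3, one_pow]
  have tn : n ^ j * s * n = n ^ 2 * (n ^ j * s) := by rw [mul_assoc, sn]; group
  have tU : (n ^ j * s) • U = T := by rw [mul_smul, sU, npT]
  have tT : (n ^ j * s) • T = U := by rw [mul_smul, sT, npU]
  generalize n ^ j * s = t at hj t2 tn tU tT
  have tp : ∀ i c, t • pt i = pt c → t • pt (2 * i) = pt (4 * c) := fun i c e => by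
    rw [← npt, ← mul_smul, tn, mul_smul, e, n2pt]
  have p2 : t • pt 2 = pt 3 := (tp _ _ hj).trans ((pte _ _).2 rfl)
  have p4 : t • pt 4 = pt 5 := (tp _ _ p2).trans ((pte _ _).2 rfl)
  have p6 : t • pt 6 = pt 1 := by rw [← hj, ← mul_smul, t2, one_smul]
  have p7 : pt 7 = T := by rw [← pt0, pte]
  have p1 : g • T = pt 1 := by rw [hpt, pow_one]
  have bru : ∀ x : G, x • U = U → ∃ (i : Fin 7) (j : Fin 3), x = g ^ i.1 * n ^ j.1 := fun x a => by
    obtain ⟨i, i7, hi⟩ := cov (x • T) fun c => hT (smul_left_cancel x (c.trans a.symm))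
    obtain ⟨j, hj⟩ := D3 ((g ^ i)⁻¹ * x) (by rw [mul_smul, a, inv_smul_eq_iff, fU])
      (by rw [mul_smul, hi, inv_smul_eq_iff, hpt])
    exact ⟨⟨i, i7⟩, j, inv_mul_eq_iff_eq_mul.1 hj⟩
  refine ⟨g, n, t, g7, g1, n3, ng, t2, tn, triv _ ?_ ?_ ?_, fun x => ?_, fun θ => ?_⟩
  · simp only [pow_three, mul_smul, g1U, tU, p1, hj, g1pt, p7, tT]
  · simp only [pow_three, mul_smul, g1U, tU, p1, hj, g1pt, p7, tT]
  · simp only [pow_three, mul_smul, g1pt, p2, p4, p6]
  · by_cases c : x • U = U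
    · obtain ⟨i, j, e⟩ := bru x c
      exact ⟨i, j, Or.inl e⟩
    obtain ⟨m, -, hm⟩ := cov (x⁻¹ • U) fun e => c (inv_smul_eq_iff.1 e).symm
    obtain ⟨i, j, e⟩ := bru (x * g ^ m * t) (by
      rw [mul_smul, mul_smul, tU, ← hpt, ← hm, smul_inv_smul])
    refine ⟨i, j, Or.inr ⟨⟨6 * m % 7, Nat.mod_lt _ (by norm_num)⟩, ?_⟩⟩
    rw [← e, ← pow_eq_pow_mod _ g7, mul_assoc _ t t, t2, mul_one, mul_assoc, ← pow_add,
      show m + 6 * m = 7 * m by ring, pow_mul, g7, one_pow, mul_one]
  have cj : ∀ (φ : MulAut G) (x : G) (S : Sylow 7 G), φ x • φ • S = φ • x • S := fun φ x S => by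
    rw [Sylow.smul_def, Sylow.smul_def, ← mul_smul, ← mul_smul]
    congr 1; ext; simp
  obtain ⟨y, yU, yT⟩ := two (θ • U) (θ • T) fun e => hT (smul_left_cancel θ e).symm
  have : θ g ∈ ((y • U : Sylow 7 G) : Subgroup G) := by
    rw [yU, Sylow.pointwise_smul_def]; exact smul_mem_pointwise_smul g θ _ gU
  rw [Sylow.coe_subgroup_smul, mem_pointwise_smul_iff_inv_smul_mem, hU,
    ← mem_powers_iff_mem_zpowers] at this
  obtain ⟨m, hm⟩ := this
  replace hm : θ g = y * g ^ (m % 7) * y⁻¹ := by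
    rw [← pow_eq_pow_mod m g7, show g ^ m = _ from hm]; simp [mul_assoc]
  have key : ∀ j : ℕ, θ g = y * n ^ j * g * (y * n ^ j)⁻¹ →
      ∃ y, (∀ x, θ x = y * x * y⁻¹) ∨ θ g = y * g⁻¹ * y⁻¹ := fun j e => by
    refine ⟨y * n ^ j, Or.inl fun x => ?_⟩
    have zU : (y * n ^ j) • U = θ • U := by rw [mul_smul, npU, yU]
    have zT : (y * n ^ j) • T = θ • T := by rw [mul_smul, npT, yT]
    generalize y * n ^ j = z at e zU zT
    have all : ∀ S : Sylow 7 G, z • S = θ • S := fun S => by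
      by_cases c : S = U
      · rw [c, zU]
      obtain ⟨i, -, rfl⟩ := cov S c
      rw [hpt, ← cj, map_pow, e, conj_pow, ← zT, ← mul_smul, ← mul_smul]; simp
    have fx : ∀ S : Sylow 7 G, (x⁻¹ * (z⁻¹ * θ x * z)) • S = S := fun S => by
      rw [mul_smul, mul_smul, mul_smul, all, cj, ← all, inv_smul_smul, inv_smul_smul]
    have := triv _ (fx _) (fx _) (fx _)
    rw [inv_mul_eq_one] at this
    conv_rhs => rw [this]
    group
  have e1 : ∀ i, n * g ^ i * n⁻¹ = g ^ (2 * i) := fun i => by rw [cp n 2 ng]; group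
  have e2 : ∀ i, n ^ 2 * g ^ i * (n ^ 2)⁻¹ = g ^ (4 * i) := fun i => by
    rw [show 4 * i = 2 * (2 * i) by ring, ← e1, ← e1]; simp [pow_two, mul_assoc]
  have e6 : g⁻¹ = g ^ 6 := inv_eq_of_mul_eq_one_right (by rw [← g7]; group)
  have := Nat.mod_lt m (show 0 < 7 by norm_num)
  generalize m % 7 = m at hm this
  interval_cases m
  · exact absurd (by simpa using hm) g1
  · exact key 0 (by simpa using hm)
  · exact key 1 (by rw [hm, ← e1 1]; group)
  · exact ⟨y * n ^ 2, Or.inr (by
      rw [hm, e6, show 3 = 4 * 6 % 7 by rfl, ← pow_eq_pow_mod _ g7, ← e2]; group)⟩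
  · exact key 2 (by rw [hm, ← e2 1]; group)
  · exact ⟨y * n, Or.inr (by
      rw [hm, e6, show 5 = 2 * 6 % 7 by rfl, ← pow_eq_pow_mod _ g7, ← e1]; group)⟩
  · exact ⟨y, Or.inr (by rw [hm, e6])⟩

end Cfsg.Agent.H9.B4
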