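import Cfsg.Agent.H9.B4.A
import Cfsg.Agent.H9.B4.G
import Cfsg.Agent.H9.C2.A

/-! Elements of order seven in `SL₄`, and lifting of relations. -/

set_option autoImplicit false
set_option linter.unusedSectionVars false
set_option linter.unusedSimpArgs false
set_option linter.unusedVariables false

namespace Cfsg.Agent.H9.B4
open Matrix Cfsg.Geo H9.C2
open scoped MatrixGroups

variable {F : Type*} [Field F] {H P : Subgroup (G4 F)}

theorem ch0 (X : M4 F) : ∃ e f : F,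
    X * X * X * X + e • (X * X) + X.det • (1 : M4 F) = X.trace • (X * X * X) + f • X ∧
      (X * X * X).trace + e * X.trace = X.trace * (X * X).trace + 3 * f := by
  obtain ⟨a0, a1, a2, a3, b0, b1, b2, b3, c0, c1, c2, c3, d0, d1, d2, d3, rfl⟩ := ex X
  refine ⟨a0 * b1 - a1 * b0 + a0 * c2 - a2 * c0 + a0 * d3 - a3 * d0 + b1 * c2 - b2 * c1 + b1 * d3 -
    b3 * d1 + c2 * d3 - c3 * d2,
    a0 * (b1 * c2 - b2 * c1) - a1 * (b0 * c2 - b2 * c0) + a2 * (b0 * c1 - b1 * c0) +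
    (a0 * (b1 * d3 - b3 * d1) - a1 * (b0 * d3 - b3 * d0) + a3 * (b0 * d1 - b1 * d0)) +
    (a0 * (c2 * d3 - c3 * d2) - a2 * (c0 * d3 - c3 * d0) + a3 * (c0 * d2 - c2 * d0)) +
    (b1 * (c2 * d3 - c3 * d2) - b2 * (c1 * d3 - c3 * d1) + b3 * (c1 * d2 - c2 * d1)), ?_⟩
  mxs
  and_intros <;> ring

/-- Cayley-Hamilton in `SL₄` -/
theorem ch {X Y : M4 F} (hd : X.det = 1) (h : X * Y = 1) : ∃ e : F,
    X ^ 4 + e • X ^ 2 + 1 = X.trace • X ^ 3 + Y.trace • X := by
  obtain ⟨e, f, h1, h2⟩ := ch0 X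
  rw [hd, one_smul] at h1
  have h3 := congrArg (fun Z => (Z * Y).trace) h1
  simp only [add_mul, Matrix.smul_mul, mul_assoc, h, mul_one, one_mul, trace_add, trace_smul,
    smul_eq_mul, trace_one, Fintype.card_fin] at h3
  simp only [mul_assoc] at h2
  have : f = Y.trace := by push_cast at h3; linear_combination h2 - h3
  exact ⟨e, by simpa only [pow_succ, pow_zero, one_mul, this] using h1⟩

theorem tr_step {X Y N : M4 F} (h : Y * X = 1) {m : ℕ} (e : N * X = X ^ (m + 1) * N) (i : ℕ) :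
    (X ^ (i + m) * N).trace = (X ^ i * N).trace := by
  have : X ^ (i + m) * N = Y * (X ^ i * N * X) := by
    rw [mul_assoc, e, ← mul_assoc (X ^ i), ← pow_add, ← add_assoc, pow_succ', mul_assoc,
      ← mul_assoc Y, h, one_mul]
  rw [this, trace_mul_comm, mul_assoc, mul_eq_one_comm.1 h, mul_one]

theorem tr7 (h2 : (2 : F) ≠ 0) (h7 : (7 : F) ≠ 0) {X N N' : M4 F} (hd : X.det = 1) (g7 : X ^ 7 = 1)
    (g1 : X ≠ 1) (hN : N * N' = 1) (e : N * X = X ^ 2 * N) :
    X.trace + (X ^ 6).trace = 1 ∧ X.trace * (X ^ 6).trace = 2 ∧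
      X ^ 4 + 1 = X.trace • X ^ 3 + X ^ 2 + (X ^ 6).trace • X ∧
      (1 + X + X ^ 2 + X ^ 3 + X ^ 4 + X ^ 5 + X ^ 6).trace = 7 := by
  obtain ⟨e', h⟩ := ch hd (Y := X ^ 6) (by rw [← pow_succ', g7])
  have c : ∀ i, N * X ^ i = X ^ (2 * i) * N := fun i => by
    induction i with
    | zero => simp
    | succ i ih => rw [pow_succ, ← mul_assoc, ih, mul_assoc, e, mul_add, mul_one, pow_add, mul_assoc]
  have t : ∀ i, (X ^ (2 * i % 7)).trace = (X ^ i).trace := fun i => by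
    rw [← pow_eq_pow_mod _ g7, ← mul_one (X ^ (2 * i)), ← hN, ← mul_assoc, ← c, trace_mul_cycle,
      mul_eq_one_comm.1 hN, one_mul]
  have t2 : (X ^ 2).trace = X.trace := by simpa using t 1
  have t4 : (X ^ 4).trace = X.trace := (t 2).trans t2
  have t3 : (X ^ 3).trace = (X ^ 6).trace := (t 3).symm
  have t5 : (X ^ 5).trace = (X ^ 6).trace := t 6
  have j0 := congrArg trace h
  have j1 := congrArg (fun Z => (Z * X).trace) h
  have j2 := congrArg (fun Z => (Z * X ^ 2).trace) h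
  have j3 := congrArg (fun Z => (Z * X ^ 3).trace) h
  simp only [add_mul, Matrix.smul_mul, one_mul, ← pow_succ, ← pow_add, ← pow_succ', show X * X = X ^ 2 from (pow_two X).symm,
    trace_add, trace_smul, smul_eq_mul, trace_one, Fintype.card_fin, Nat.reduceAdd, g7, t2, t3, t4, t5,
    Nat.cast_ofNat] at j0 j1 j2 j3 ⊢
  generalize X.trace = a at *
  generalize (X ^ 6).trace = b at *
  by_cases hab : a = b
  · exfalso
    subst hab
    obtain rfl : a = 4 := by linear_combination j1 - j0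
    obtain rfl : e' = 6 := mul_left_cancel₀ (mul_ne_zero h2 h2) (by linear_combination j1)
    obtain ⟨M, rfl⟩ : ∃ M, X = 1 + M := ⟨X - 1, by simp⟩
    have m4 : M ^ 4 = 0 := by
      rw [← sub_eq_zero] at h
      rw [← h]
      simp only [ofNat_smul_eq_nsmul]
      noncomm_ring
    have m : (7 : F) • M + (21 : F) • M ^ 2 + (35 : F) • M ^ 3 = 0 := by
      have : (1 + M) ^ 7 = 1 + (7 • M + 21 • M ^ 2 + 35 • M ^ 3) +
          M ^ 4 * (35 • 1 + 21 • M + 7 • M ^ 2 + M ^ 3) := by noncomm_ring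
      rw [g7, m4, zero_mul, add_zero, left_eq_add] at this
      simpa only [ofNat_smul_eq_nsmul] using this
    have m5 : M ^ 5 = 0 := by rw [pow_succ, m4, zero_mul]
    have m3 : M ^ 3 = 0 := by
      have := congrArg (· * M ^ 2) m
      simpa [add_mul, ← pow_add, ← pow_succ', m4, m5, h7] using this
    have m2 : M ^ 2 = 0 := by
      have := congrArg (· * M) m
      simpa [add_mul, ← pow_succ, ← pow_two, m4, m3, h7] using this
    exact g1 (by simpa [m2, m3, h7] using m)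
  have hab' := sub_ne_zero.2 hab
  obtain rfl : e' = -1 := mul_left_cancel₀ hab' (by linear_combination j0 - j3)
  have s : a + b = 1 := mul_left_cancel₀ hab' (by linear_combination j2 - j1)
  exact ⟨s, mul_left_cancel₀ h2 (by linear_combination -j0), by linear_combination (norm := module) h,
    by linear_combination 3 * s⟩

theorem scal (hP : P ≤ specialLinear (Fin 4) F) {x : P} (h : (x : MS P) = 1) :
    ∃ c : F, c ^ 4 = 1 ∧ x.1.1 = c • 1 := by
  rw [QuotientGroup.eq_one_iff, Subgroup.mem_subgroupOf, mem_scalars_iff] at h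
  obtain ⟨c, hc⟩ := h
  have : x.1.1.det = 1 := congrArg Units.val (hP x.2)
  exact ⟨c, by simpa [hc] using this, hc⟩

theorem scal' (hP : P ≤ specialLinear (Fin 4) F) {x : P} (h : (x : MS P) = 1) :
    x ^ 4 = 1 ∧ ∀ y, Commute x y := by
  obtain ⟨c, h1, h2⟩ := scal hP h
  refine ⟨Subtype.ext (Units.ext ?_), fun y => Subtype.ext (Units.ext ?_)⟩
  · simp [h2, smul_pow, h1]
  · simp [h2]

theorem lift_eq (hP : P ≤ specialLinear (Fin 4) F) {x y : P} (h : (x : MS P) = y) {m : ℕ}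
    (hm : Odd m) (hx : x ^ m = 1) (hy : y ^ m = 1) : x = y := by
  obtain ⟨h1, h2⟩ := scal' hP (x := x⁻¹ * y) (by simp [h])
  have h3 : (x⁻¹ * y) ^ m = 1 := by
    have := (h2 x).symm.mul_pow m
    rwa [mul_inv_cancel_left, hx, hy, one_mul, eq_comm] at this
  have := pow_gcd_eq_one.2 ⟨h1, h3⟩
  rw [(Nat.Coprime.pow_left 2 (Nat.coprime_two_left.2 hm) : Nat.Coprime 4 m), pow_one,
    inv_mul_eq_one] at this
  exact this

theorem lift7 (hP : P ≤ specialLinear (Fin 4) F) {g n : MS P} (g7 : g ^ 7 = 1)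
    (ng : n * g = g ^ 2 * n) (n' : P) (hn : n' = n) :
    ∃ g' : P, g' = g ∧ g' ^ 7 = 1 ∧ n' * g' = g' ^ 2 * n' := by
  obtain ⟨x, rfl⟩ := QuotientGroup.mk_surjective g
  have e : ((x ^ 8 : P) : MS P) = x := by
    rw [QuotientGroup.mk_pow, pow_succ, g7, one_mul]
  have e7 : (x ^ 8) ^ 7 = 1 := by
    rw [← pow_mul, show 8 * 7 = 7 * 4 * 2 by rfl, pow_mul, pow_mul, (scal' hP g7).1, one_pow]
  refine ⟨x ^ 8, e, e7, ?_⟩
  generalize x ^ 8 = y at e e7
  rw [← mul_inv_eq_iff_eq_mul]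
  refine lift_eq hP (by simp [hn, e, ng]) (m := 7) (by decide) (by rw [conj_pow, e7]; simp) ?_
  rw [← pow_mul, mul_comm, pow_mul, e7, one_pow]

theorem val_inv {g : G4 F} {m : ℕ} (h : g ^ (m + 1) = 1) : ((g⁻¹ : G4 F) : M4 F) = g.1 ^ m := by
  rw [inv_eq_of_mul_eq_one_right (show g * g ^ m = 1 by rw [← pow_succ', h])]; simp

theorem el7 (h2 : (2 : F) ≠ 0) (h7 : (7 : F) ≠ 0) (hP : P ≤ specialLinear (Fin 4) F) {g n : MS P}
    (g7 : g ^ 7 = 1) (g1 : g ≠ 1) (ng : n * g = g ^ 2 * n) : ∃ x ∈ P,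
      (x : M4 F).trace + ((x⁻¹ : G4 F) : M4 F).trace = 1 ∧
      (x : M4 F).trace * ((x⁻¹ : G4 F) : M4 F).trace = 2 := by
  obtain ⟨n, rfl⟩ := QuotientGroup.mk_surjective n
  obtain ⟨x, rfl, x7, e⟩ := lift7 hP g7 ng n rfl
  have x7' : x.1 ^ 7 = 1 := congrArg Subtype.val x7
  obtain ⟨a, b, -⟩ := tr7 h2 h7 (X := x.1.1) (N := n.1.1) (congrArg Units.val (hP x.2))
    (congrArg Units.val x7') (fun k => g1 (by rw [show x = 1 from Subtype.ext (Units.ext k)]; rfl))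
    n.1.mul_inv (congrArg (fun z : P => z.1.1) e)
  exact ⟨x, x.2, by rwa [val_inv x7'], by rwa [val_inv x7']⟩

set_option maxRecDepth 10000 in
theorem el7A (h2 : (2 : F) ≠ 0) (h7 : (7 : F) ≠ 0) (hP : P ≤ specialLinear (Fin 4) F)
    (e : MS P ≃* alternatingGroup (Fin 7)) : ∃ x ∈ P,
      (x : M4 F).trace + ((x⁻¹ : G4 F) : M4 F).trace = 1 ∧
      (x : M4 F).trace * ((x⁻¹ : G4 F) : M4 F).trace = 2 := by
  let c : alternatingGroup (Fin 7) := ⟨c[0, 1, 2, 3, 4, 5, 6], by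
    rw [Equiv.Perm.mem_alternatingGroup]; decide⟩
  let n : alternatingGroup (Fin 7) := ⟨c[1, 2, 4] * c[3, 6, 5], by
    rw [Equiv.Perm.mem_alternatingGroup]; decide⟩
  refine el7 h2 h7 hP (g := e.symm c) (n := e.symm n) ?_ ?_ ?_
  · rw [← map_pow, show c ^ 7 = 1 by decide, map_one]
  · rw [Ne, MulEquiv.map_eq_one_iff]; decide
  · rw [← map_pow, ← map_mul, ← map_mul, show n * c = c ^ 2 * n by decide]

/-- matrix generators of a subgroup `H` with `H / Z` simple of order 168 -/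
structure Gen (H : Subgroup (G4 F)) (g n t : G4 F) : Prop where
  gH : g ∈ H
  nH : n ∈ H
  tH : t ∈ H
  g7 : g ^ 7 = 1
  g1 : g ≠ 1
  n3 : n ^ 3 = 1
  ng : n * g = g ^ 2 * n
  t2 : ∃ c : F, c ^ 4 = 1 ∧ (t * t).1 = c • 1
  tn : t * n = n ^ 2 * t
  tg : (t * g) ^ 3 = 1
  bru : ∀ x ∈ H, ∃ (i : Fin 7) (j : Fin 3) (z : F), x.1 = z • (g ^ i.1 * n ^ j.1).1 ∨
    ∃ k : Fin 7, x.1 = z • (g ^ i.1 * n ^ j.1 * t * g ^ k.1).1

theorem gen (h2 : (2 : F) ≠ 0) (h7 : (7 : F) ≠ 0) (hH : H ≤ specialLinear (Fin 4) F)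
    (hc : IsResidualCore H P) (h : Nat.card (MS P) = 168) : ∃ g n t, Gen H g n t := by
  have hP := hc.le.trans hH
  have : Finite (MS P) := Nat.finite_of_card_ne_zero (by omega)
  obtain ⟨g0, n0, t0, L⟩ := l27 ⟨hc.simple, fun h => hc.nonabelian ⟨⟨h⟩⟩⟩ h
  obtain ⟨n, hn, n3⟩ : ∃ n : P, n = n0 ∧ n ^ 3 = 1 := by
    obtain ⟨x, rfl⟩ := QuotientGroup.mk_surjective n0
    refine ⟨x ^ 4, by rw [QuotientGroup.mk_pow, pow_succ, L.n3, one_mul], ?_⟩
    rw [← pow_mul, mul_comm, pow_mul, (scal' hP L.n3).1]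
  obtain ⟨g, hg, g7, ng⟩ := lift7 hP L.g7 L.ng n hn
  obtain ⟨t, ht, tg⟩ : ∃ t : P, t = t0 ∧ (t * g) ^ 3 = 1 := by
    obtain ⟨x, rfl⟩ := QuotientGroup.mk_surjective t0
    have e : (((x * g) ^ 3 : P) : MS P) = 1 := by simpa [hg] using L.tg
    refine ⟨(x * g) ^ 3 * x, by rw [QuotientGroup.mk_mul, e, one_mul], ?_⟩
    rw [mul_assoc, ((scal' hP e).2 _).mul_pow, ← pow_succ, (scal' hP e).1]
  subst hn hg ht
  have g1 : g.1 ≠ 1 := fun k => L.g1 (by rw [show g = 1 from Subtype.ext k]; rfl)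
  have g7' : g.1 ^ 7 = 1 := congrArg Subtype.val g7
  have tn : t * n = n ^ 2 * t := by
    rw [← mul_inv_eq_iff_eq_mul]
    refine lift_eq hP (by simp [L.tn]) (m := 3) (by decide) (by rw [conj_pow, n3]; simp) ?_
    rw [← pow_mul, mul_comm, pow_mul, n3, one_pow]
  have lf : ∀ x y : P, (x : MS P) = y → ∃ z : F, x.1.1 = z • y.1.1 := fun x y e => by
    obtain ⟨c, -, hc⟩ := scal hP (x := x * y⁻¹) (by simp [e])
    refine ⟨c, ?_⟩
    have := congrArg (· * y.1.1) hc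
    simpa using this
  refine ⟨g, n, t, hc.le g.2, hc.le n.2, hc.le t.2, g7', g1, congrArg Subtype.val n3,
    congrArg Subtype.val ng, scal hP (x := t * t) L.t2, congrArg Subtype.val tn,
    congrArg Subtype.val tg, fun x hx => ?_⟩
  let φ : P ≃* P :=
    { toFun y := ⟨x * y * x⁻¹, hc.normal x hx y y.2⟩
      invFun y := ⟨x⁻¹ * y * x⁻¹⁻¹, hc.normal _ (H.inv_mem hx) y y.2⟩
      left_inv y := Subtype.ext (by simp [mul_assoc])
      right_inv y := Subtype.ext (by simp [mul_assoc])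
      map_mul' y z := Subtype.ext (by simp [mul_assoc]) }
  have hφ : ((scalars (Fin 4) F).subgroupOf P).map φ = (scalars (Fin 4) F).subgroupOf P := by
    ext y
    refine (Subgroup.mem_map_equiv (f := φ)).trans ?_
    rw [Subgroup.mem_subgroupOf, Subgroup.mem_subgroupOf]
    refine ⟨fun k => ?_, fun k => scalars_normal.conj_mem _ k _⟩
    simpa [φ, mul_assoc] using scalars_normal.conj_mem _ k x
  obtain ⟨y, hy⟩ := L.aut (QuotientGroup.congr _ _ φ hφ)
  obtain ⟨y, rfl⟩ := QuotientGroup.mk_surjective y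
  rcases hy with hy | hy
  · obtain ⟨c, e⟩ := (mem_scalars_iff _).1 (hc.centralizer_scalar (y.1⁻¹ * x)
      (H.mul_mem (H.inv_mem (hc.le y.2)) hx) fun w hw => by
        have : ((y⁻¹ * φ ⟨w, hw⟩ * y * (⟨w, hw⟩ : P)⁻¹ : P) : MS P) = 1 := by
          have := hy (⟨w, hw⟩ : P)
          rw [QuotientGroup.congr_mk] at this
          simp [this, mul_assoc]
        rw [QuotientGroup.eq_one_iff, Subgroup.mem_subgroupOf] at this
        simpa [φ, mul_assoc] using this)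
    have e' : x.1 = c.1 • y.1.1 := by simpa using congrArg (y.1.1 * ·) e
    obtain ⟨i, j, k | ⟨k, k'⟩⟩ := L.bru y
    · obtain ⟨z, hz⟩ := lf y (g ^ i.1 * n ^ j.1) k
      exact ⟨i, j, c * z, Or.inl (by rw [e', hz, smul_smul]; rfl)⟩
    · obtain ⟨z, hz⟩ := lf y (g ^ i.1 * n ^ j.1 * t * g ^ k.1) k'
      exact ⟨i, j, c * z, Or.inr ⟨k, by rw [e', hz, smul_smul]; rfl⟩⟩
  exfalso
  rw [QuotientGroup.congr_mk] at hy
  have e := lift_eq hP (x := φ g) (y := y * g⁻¹ * y⁻¹) hy (m := 7) (by decide)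
    (by rw [← map_pow, g7, map_one]) (by rw [conj_pow, inv_pow, g7]; simp)
  have e' : (x.1 * g.1.1 * (x⁻¹).1).trace = (y.1.1 * (g.1⁻¹).1 * (y.1⁻¹).1).trace :=
    congrArg (fun z : P => z.1.1.trace) e
  rw [trace_units_conj, trace_units_conj, val_inv g7'] at e'
  obtain ⟨a, b, -⟩ := tr7 h2 h7 (X := g.1.1) (N := n.1.1) (congrArg Units.val (hP g.2))
    (congrArg Units.val g7') (fun k => g1 (Units.ext k)) n.1.mul_inv (congrArg (fun z : P => z.1.1) ng)
  rw [← e'] at a b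
  exact h7 (by linear_combination (2 * g.1.1.trace + 1) * a - 4 * b)

end Cfsg.Agent.H9.B4
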