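import Cfsg.Agent.H9.B4.B

/-! `SL₂(7)` in dimension four: explicit matrices. -/

set_option autoImplicit false
set_option linter.unusedSectionVars false
set_option linter.unusedSimpArgs false
set_option linter.unusedVariables false

namespace Cfsg.Agent.H9.B4
open Matrix Cfsg.Geo H9.C2
open scoped MatrixGroups

variable {F : Type*} [Field F] {H P : Subgroup (G4 F)}

theorem fixv (h2 : (2 : F) ≠ 0) (h7 : (7 : F) ≠ 0) {X N T T' : M4 F} (hd : X.det = 1)
    (hn : N.det = 1) (g7 : X ^ 7 = 1) (g1 : X ≠ 1) (n3 : N ^ 3 = 1) (e : N * X = X ^ 2 * N)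
    (hT : T * T' = 1) (tn : T * N = N ^ 2 * T) : ∃ u, u ≠ 0 ∧ X *ᵥ u = u ∧ N *ᵥ u = u := by
  have n3' : N * N ^ 2 = 1 := by rw [← pow_succ', n3]
  have g7' : X ^ 6 * X = 1 := by rw [← pow_succ, g7]
  obtain ⟨-, -, -, tE⟩ := tr7 h2 h7 hd g7 g1 n3' e
  have c : ∀ i, N * X ^ i = X ^ (2 * i % 7) * N := fun i => by
    rw [← pow_eq_pow_mod _ g7]
    induction i with
    | zero => simp
    | succ i ih => rw [pow_succ, ← mul_assoc, ih, mul_assoc, e, mul_add, mul_one, pow_add, mul_assoc]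
  have e2 : N ^ 2 * X = X ^ 4 * N ^ 2 := by
    rw [pow_two, mul_assoc, e, ← mul_assoc, c 2, mul_assoc]
  have t1 : ((1 + X + X ^ 2 + X ^ 3 + X ^ 4 + X ^ 5 + X ^ 6) * N).trace = 7 * N.trace := by
    have s := tr_step g7' (m := 1) e
    have s0 := s 0
    simp only [zero_add, pow_zero, pow_one, one_mul] at s0
    have s1 := s 1
    rw [pow_one] at s1
    simp only [add_mul, trace_add, one_mul]
    linear_combination 6 * s0 + 5 * s1 + 4 * s 2 + 3 * s 3 + 2 * s 4 + s 5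
  have t2 : ((1 + X + X ^ 2 + X ^ 3 + X ^ 4 + X ^ 5 + X ^ 6) * N ^ 2).trace = 7 * (N ^ 2).trace := by
    have s := tr_step g7' (m := 3) e2
    have s0 := s 0
    simp only [zero_add, pow_zero, one_mul] at s0
    have s1 := s 1
    rw [pow_one] at s1
    have s5 := s 5
    have s6 := s 6
    rw [pow_eq_pow_mod _ g7] at s5 s6
    simp only [Nat.reduceAdd, Nat.reduceMod, pow_one] at s5 s6
    simp only [add_mul, trace_add, one_mul]
    linear_combination 6 * s0 + 5 * s 3 + 4 * s6 + 3 * s 2 + 2 * s5 + s1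
  have XE : X * (1 + X + X ^ 2 + X ^ 3 + X ^ 4 + X ^ 5 + X ^ 6) =
      1 + X + X ^ 2 + X ^ 3 + X ^ 4 + X ^ 5 + X ^ 6 := by
    simp only [mul_add, mul_one, ← pow_succ', show X * X = X ^ 2 from (pow_two X).symm, g7]; abel
  have NE : N * (1 + X + X ^ 2 + X ^ 3 + X ^ 4 + X ^ 5 + X ^ 6) =
      (1 + X + X ^ 2 + X ^ 3 + X ^ 4 + X ^ 5 + X ^ 6) * N := by
    simp only [mul_add, add_mul, mul_one, one_mul, e, c, Nat.reduceMul, Nat.reduceMod, pow_one]; abel
  generalize 1 + X + X ^ 2 + X ^ 3 + X ^ 4 + X ^ 5 + X ^ 6 = E at *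
  have key : ∀ Z : M4 F, Commute E Z → E * Z ≠ 0 → N * (E * Z) = E * Z →
      ∃ u, u ≠ 0 ∧ X *ᵥ u = u ∧ N *ᵥ u = u := fun Z h0 h1 h3 => by
    obtain ⟨x, hx⟩ : ∃ x, (E * Z) *ᵥ x ≠ 0 := by
      by_contra! k
      exact h1 (H7.mat_eq_zero_of_mulVec k)
    exact ⟨_, hx, by rw [mulVec_mulVec, ← mul_assoc, XE], by rw [mulVec_mulVec, h3]⟩
  have cE : Commute E N := NE.symm
  by_cases h0 : E * (1 + N + N ^ 2) = 0
  swap
  · refine key _ (((Commute.one_right _).add_right cE).add_right (cE.pow_right 2)) h0 ?_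
    rw [← mul_assoc, NE, mul_assoc]
    congr 1
    rw [mul_add, mul_add, mul_one, n3', ← pow_two]; abel
  have h3 : (3 : F) = 0 := by
    obtain ⟨f, hf⟩ := ch hn n3'
    have tt : (N ^ 2).trace = N.trace := trace_of_int (T := T)
      (left_ne_zero_of_mul_eq_one (by rw [← det_mul, hT, det_one])) tn.symm
    rw [pow_succ, n3, one_mul] at hf
    have j0 := congrArg trace hf
    have j1 := congrArg (fun Z => (Z * N).trace) hf
    have j2 := congrArg trace h0
    simp only [add_mul, mul_add, Matrix.smul_mul, one_mul, mul_one, ← pow_succ, n3,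
      show N * N = N ^ 2 from (pow_two N).symm, trace_add, trace_smul, smul_eq_mul, trace_one,
      Fintype.card_fin, Nat.cast_ofNat, tE, t1, t2, tt, trace_zero] at j0 j1 j2
    have j3 : 1 + 2 * N.trace = 0 := mul_left_cancel₀ h7 (by linear_combination j2)
    have : (3 : F) ^ 4 = 0 := by grind
    exact pow_eq_zero_iff (by norm_num) |>.1 this
  by_cases h1 : E * (N - 1) = 0
  · refine key 1 (Commute.one_right _) (fun k => h7 (by rw [← tE, ← mul_one E, k, trace_zero])) ?_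
    rw [mul_one, NE, ← sub_eq_zero, ← h1, mul_sub, mul_one]
  refine key _ (cE.sub_right (Commute.one_right _)) h1 ?_
  rw [← mul_assoc, NE, mul_assoc, ← sub_eq_zero, ← mul_sub,
    show N * (N - 1) - (N - 1) = 1 + N + N ^ 2 - (3 : F) • N by
      rw [ofNat_smul_eq_nsmul]; noncomm_ring, h3, zero_smul, sub_zero, h0]

/-- the element of order seven -/
def G0 (a : F) : M4 F := mx 0 0 0 (-1) 1 0 0 (1 - a) 0 1 0 1 0 0 1 a
/-- the element of order three -/
def N0 (a : F) : M4 F := mx 1 0 (-1) (1 - a) 0 0 (1 - a) 1 0 1 1 a 0 0 a (-1)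
/-- the involution -/
def T0 (a c : F) : M4 F :=
  mx (-c) (c * (1 - a)) 0 0 (-c * a) c 0 0 (a + c) (c * a) 0 1 c (-c) c 0

theorem frame (h2 : (2 : F) ≠ 0) (h7 : (7 : F) ≠ 0) (hH : H ≤ specialLinear (Fin 4) F)
    (irr : H7.Irr H) {g n t : G4 F} (L : Gen H g n t) : ∃ (C : G4 F) (a : F), a * a = a - 2 ∧
      g.1.trace = a ∧ (g⁻¹).1.trace = 1 - a ∧ g.1 * C = C * G0 a ∧ n.1 * C = C * N0 a ∧
      t.1 * C = C * T0 a (-1) := by
  have g7 : g.1 ^ 7 = 1 := congrArg Units.val L.g7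
  have n3 : n.1 ^ 3 = 1 := congrArg Units.val L.n3
  have ng : n.1 * g.1 = g.1 ^ 2 * n.1 := congrArg Units.val L.ng
  have tn : t.1 * n.1 = n.1 ^ 2 * t.1 := congrArg Units.val L.tn
  have tg : (t.1 * g.1) ^ 3 = 1 := congrArg Units.val L.tg
  have g1 : g.1 ≠ 1 := fun e => L.g1 (Units.ext e)
  have dg : g.1.det = 1 := congrArg Units.val (hH L.gH)
  obtain ⟨c, c4, t2⟩ := L.t2
  rw [Units.val_mul] at t2
  obtain ⟨u, u0, gu, nu⟩ := fixv h2 h7 dg (congrArg Units.val (hH L.nH)) g7 g1 n3 ng t.mul_inv tn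
  obtain ⟨s, m, hch, -⟩ := tr7 h2 h7 dg g7 g1 n.mul_inv ng
  rw [val_inv L.g7]
  have hb : (g.1 ^ 6).trace = 1 - g.1.trace := by linear_combination s
  rw [hb] at m hch ⊢
  generalize g.1.trace = a at *
  have ha : a * a = a - 2 := by linear_combination -m
  obtain ⟨v, hv⟩ : ∃ v : ℕ → V4 F, ∀ i, v i = g.1 ^ i *ᵥ t.1 *ᵥ u := ⟨_, fun _ => rfl⟩
  have gv : ∀ k i, g.1 ^ k *ᵥ v i = v (k + i) := fun k i => by
    rw [hv, hv, mulVec_mulVec, pow_add]
  have g1v : ∀ i, g.1 *ᵥ v i = v (i + 1) := fun i => by rw [add_comm, ← gv, pow_one]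
  have v7 : ∀ i, v i = v (i % 7) := fun i => by rw [hv, hv, ← pow_eq_pow_mod _ g7]
  have v0 : t.1 *ᵥ u = v 0 := by simp [hv]
  have tt : ∀ x, t.1 *ᵥ t.1 *ᵥ x = c • x := fun x => by
    rw [mulVec_mulVec, t2, smul_mulVec, one_mulVec]
  have nv : ∀ i, n.1 *ᵥ v i = v (2 * i) := fun i => by
    have c : ∀ i, n.1 * g.1 ^ i = g.1 ^ (2 * i) * n.1 := fun i => by
      induction i with
      | zero => simp
      | succ i ih => rw [pow_succ, ← mul_assoc, ih, mul_assoc, ng, mul_add, mul_one, pow_add, mul_assoc]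
    have : n.1 * t.1 = t.1 * (n.1 * n.1) := by
      rw [← mul_assoc, tn, mul_assoc, tn, ← mul_assoc, ← pow_add, pow_succ, n3, one_mul]
    rw [hv, hv, mulVec_mulVec, c, ← mulVec_mulVec, mulVec_mulVec _ n.1, this]
    simp only [← mulVec_mulVec, nu]
  have tv : ∀ i j, t.1 *ᵥ v i = c ^ 3 • v j → t.1 *ᵥ v (2 * i) = c ^ 3 • v (4 * j % 7) :=
    fun i j e => by
      rw [← nv, mulVec_mulVec, tn, pow_two]
      simp only [← mulVec_mulVec, e, mulVec_smul, nv, ← v7, ← mul_assoc, Nat.reduceMul]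
  have tg' : ∀ x, t.1 *ᵥ g.1 *ᵥ t.1 *ᵥ g.1 *ᵥ t.1 *ᵥ g.1 *ᵥ x = x := fun x => by
    simpa only [pow_three, ← mulVec_mulVec, one_mulVec] using congrArg (· *ᵥ x) tg
  have t1 : t.1 *ᵥ v 1 = c ^ 3 • v 6 := by
    have := congrArg (fun x => c ^ 3 • g.1 ^ 6 *ᵥ t.1 *ᵥ x) (tg' u)
    simp only [tt, gu, v0, g1v, mulVec_smul, smul_smul, ← pow_succ, c4, one_smul, gv] at this
    rwa [mulVec_mulVec, ← pow_succ, g7, one_mulVec] at this
  have t2' : t.1 *ᵥ v 2 = c ^ 3 • v 3 := tv 1 6 t1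
  have t4 : t.1 *ᵥ v 4 = c ^ 3 • v 5 := tv 2 3 t2'
  have inv : ∀ i j, t.1 *ᵥ v i = c ^ 3 • v j → t.1 *ᵥ v j = c ^ 2 • v i := fun i j e => by
    have := congrArg (fun x => c • t.1 *ᵥ x) e
    simp only [tt, mulVec_smul, smul_smul, ← pow_succ', c4, one_smul] at this
    rw [← this, pow_two]
  have t3 := inv _ _ t2'
  have tu : v 0 ≠ 0 := fun e => u0 ((H7.val_mulVec_eq_zero t).1 (v0.trans e))
  have c2 : c * c = 1 := by
    have := tg' (v 2)
    simp only [g1v, Nat.reduceAdd, t3, mulVec_smul, smul_smul] at this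
    have v2 : v 2 ≠ 0 := fun e => tu ((H7.val_mulVec_eq_zero (g ^ 2)).1 (by simpa [gv] using e))
    have := smul_left_injective F v2 (this.trans (one_smul F _).symm)
    linear_combination this - c ^ 2 * c4
  have c3 : c ^ 3 = c := by linear_combination c * c2
  rw [c3] at t1 t2' t4
  rw [pow_two, c2, one_smul] at t3
  have r : ∀ i, v (4 + i) + v i = a • v (3 + i) + v (2 + i) + (1 - a) • v (i + 1) := fun i => by
    simpa only [add_mulVec, one_mulVec, smul_mulVec, gv, g1v] using congrArg (· *ᵥ v i) hch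
  have r4 : v 4 = a • v 3 + v 2 + (1 - a) • v 1 - v 0 := by linear_combination (norm := module) r 0
  have r5 : v 5 = (a - 1) • v 3 + v 2 + v 1 - a • v 0 := by
    have := r 1
    simp only [Nat.reduceAdd, r4] at this
    linear_combination (norm := module) this + ha • v 3 - ha • v 1
  have r6 : v 6 = -v 3 + a • v 2 + v 1 + (1 - a) • v 0 := by
    have := r 2
    simp only [Nat.reduceAdd, r4, r5] at this
    linear_combination (norm := module) this + ha • v 3 - ha • v 0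
  have cu : c • u = -c • v 0 + (-c * a) • v 1 + (a + c) • v 2 + c • v 3 := by
    have := congrArg (t.1 *ᵥ ·) r4
    simp only [mulVec_add, mulVec_sub, mulVec_smul, t1, t2', t3, t4, r5, r6] at this
    rw [← v0, tt, v0] at this
    linear_combination (norm := module) this + (c * ha) • v 0 - (c * ha) • v 2
  have eg : g.1 * cols (v 0) (v 1) (v 2) (v 3) = cols (v 0) (v 1) (v 2) (v 3) * G0 a := by
    rw [mul_cols, G0, cols_mx]
    simp only [g1v, Nat.reduceAdd, r4]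
    congr 1 <;> module
  have en : n.1 * cols (v 0) (v 1) (v 2) (v 3) = cols (v 0) (v 1) (v 2) (v 3) * N0 a := by
    rw [mul_cols, N0, cols_mx]
    simp only [nv, Nat.reduceMul, r4, r6]
    congr 1 <;> module
  have et : t.1 * cols (v 0) (v 1) (v 2) (v 3) = cols (v 0) (v 1) (v 2) (v 3) * T0 a c := by
    rw [mul_cols, T0, cols_mx, t1, t2', t3, r6, show t.1 *ᵥ v 0 = c • u by rw [← v0, tt], cu]
    congr 1 <;> module
  have hC : (cols (v 0) (v 1) (v 2) (v 3)).det ≠ 0 := by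
    have v0 : cols (v 0) (v 1) (v 2) (v 3) *ᵥ ![1, 0, 0, 0] = v 0 := by simp [cols_mulVec]
    generalize cols (v 0) (v 1) (v 2) (v 3) = C at eg en et v0
    let K : Submonoid (M4 F) :=
      { carrier := {x | ∃ Y, x * C = C * Y}
        one_mem' := ⟨1, by simp⟩
        mul_mem' := fun ⟨Y, h⟩ ⟨Z, h'⟩ => ⟨Y * Z, by rw [mul_assoc, h', ← mul_assoc, h, mul_assoc]⟩ }
    have kg : g.1 ∈ K := ⟨_, eg⟩
    have kn : n.1 ∈ K := ⟨_, en⟩
    have kt : t.1 ∈ K := ⟨_, et⟩
    have ks : ∀ (z : F), ∀ x ∈ K, z • x ∈ K := fun z x ⟨Y, h⟩ => ⟨z • Y, by simp [h]⟩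
    rcases irr (LinearMap.range (toLin' C)) (by
      rintro x hx _ ⟨y, rfl⟩
      obtain ⟨Y, hY⟩ : x.1 ∈ K := by
        obtain ⟨i, j, z, e | ⟨k, e⟩⟩ := L.bru x hx <;> rw [e] <;> refine ks _ _ ?_ <;>
          simp only [Units.val_mul, Units.val_pow_eq_pow_val]
        · exact mul_mem (pow_mem kg _) (pow_mem kn _)
        · exact mul_mem (mul_mem (mul_mem (pow_mem kg _) (pow_mem kn _)) kt) (pow_mem kg _)
      exact ⟨Y *ᵥ y, by simp [hY]⟩) with e | e
    · exact absurd (v0 ▸ (Submodule.mem_bot F).1 (e ▸ ⟨![1, 0, 0, 0], rfl⟩)) tu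
    · exact ((isUnit_iff_isUnit_det _).1 (mulVec_surjective_iff_isUnit.1
        (LinearMap.range_eq_top.1 e))).ne_zero
  obtain ⟨C, hC'⟩ := exists_un hC
  rw [← hC'] at eg en et
  rcases mul_self_eq_one_iff.1 c2 with rfl | rfl
  · exfalso
    have : (C : M4 F) *ᵥ ![0, 0, -2 * a, 2 * a] = 0 := by
      have := congrArg (g.1 *ᵥ ·) cu
      simp only [mulVec_add, mulVec_smul, gu, g1v, Nat.reduceAdd, r4] at this
      rw [hC', cols_mulVec]
      simp only [cons_val]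
      linear_combination (norm := module) cu - this
    have := congrFun ((H7.val_mulVec_eq_zero C).1 this) 3
    simp only [cons_val, Pi.zero_apply, mul_eq_zero, h2, false_or] at this
    exact h2 (by rw [this] at ha; linear_combination ha)
  exact ⟨C, a, ha, rfl, rfl, eg, en, et⟩

end Cfsg.Agent.H9.B4
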