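import Cfsg.Agent.H9.B4.D1

/-! `SL₂(7)` lies in `2.A₇`. -/

set_option autoImplicit false
set_option linter.unusedSectionVars false
set_option linter.unusedSimpArgs false
set_option linter.unusedVariables false

namespace Cfsg.Agent.H9.B4
open Matrix Cfsg.Geo H9.C2
open scoped MatrixGroups

variable {F : Type*} [Field F] {H P : Subgroup (G4 F)} {a : F} {X Y : M4 F} {σ τ : Fin 7 → Fin 7}

/-- an alternating matrix -/
def al (x0 x1 x2 x3 x4 x5 : F) : M4 F :=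
  mx 0 x0 x1 x2 (-x0) 0 x3 x4 (-x1) (-x3) 0 x5 (-x2) (-x4) (-x5) 0

/-- seven alternating forms -/
def Bm (a : F) : Fin 7 → M4 F :=
  ![al a a (a - 1) a (-3) (1 - a), al a (-3) (-a) (1 - a) a (1 - a),
    al (1 - a) a (a - 1) (1 - a) a (-3), al (1 - a) a (-a) (-3) (1 - a) a,
    al (-3) (1 - a) (-a) a (1 - a) (1 - a), al a (1 - a) (a - 1) (1 - a) (1 - a) a,
    al (1 - a) (1 - a) 3 a a a]

/-- the polar form of the Pfaffian -/
def bt (X Y : M4 F) : F :=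
  X 0 1 * Y 2 3 - X 0 2 * Y 1 3 + X 0 3 * Y 1 2 + X 1 2 * Y 0 3 - X 1 3 * Y 0 2 + X 2 3 * Y 0 1

theorem bt_add (X Y Z : M4 F) : bt (X + Y) Z = bt X Z + bt Y Z := by simp [bt]; ring
theorem bt_smul (c : F) (X Z : M4 F) : bt (c • X) Z = c * bt X Z := by simp [bt]; ring
theorem bt_add' (X Y Z : M4 F) : bt Z (X + Y) = bt Z X + bt Z Y := by simp [bt]; ring
theorem bt_smul' (c : F) (X Z : M4 F) : bt Z (c • X) = c * bt Z X := by simp [bt]; ring

theorem bt_B (ha : a * a = a - 2) (i j : Fin 7) :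
    bt (Bm a i) (Bm a j) = if i = j then 6 * a else -a := by
  fin_cases i <;> fin_cases j <;>
    simp [Bm, bt, al, mx01, mx02, mx03, mx12, mx13, mx23] <;> grind

theorem Bm_T (i : Fin 7) : (Bm a i)ᵀ = -Bm a i := by
  have : ∀ x0 x1 x2 x3 x4 x5 : F, (al x0 x1 x2 x3 x4 x5)ᵀ = -al x0 x1 x2 x3 x4 x5 := by
    intros; ext i j; fin_cases i <;> fin_cases j <;> simp [al, mx]
  fin_cases i <;> exact this ..

theorem btz (h2 : (2 : F) ≠ 0) (hX : Xᵀ = -X) (hY : Yᵀ = -Y) {v : V4 F} (h0 : v ≠ 0)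
    (h : X *ᵥ v = 0) (h' : Y *ᵥ v = 0) : bt X Y = 0 := by
  have d : ∀ Z : M4 F, Zᵀ = -Z → ∀ i, Z i i = 0 := fun Z hZ i =>
    mul_left_cancel₀ h2 (by have : Z i i = -Z i i := congrFun (congrFun hZ i) i; linear_combination this)
  have o : ∀ Z : M4 F, Zᵀ = -Z → ∀ i j, Z j i = -Z i j := fun Z hZ i j => congrFun (congrFun hZ i) j
  have x := congrFun h
  have y := congrFun h'
  have x0 := x 0; have x1 := x 1; have x2 := x 2; have x3 := x 3
  have y0 := y 0; have y1 := y 1; have y2 := y 2; have y3 := y 3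
  simp only [mulVec, dotProduct, Fin.sum_univ_four, Pi.zero_apply, d X hX, d Y hY, o X hX 0 1,
    o X hX 0 2, o X hX 0 3, o X hX 1 2, o X hX 1 3, o X hX 2 3, o Y hY 0 1,
    o Y hY 0 2, o Y hY 0 3, o Y hY 1 2, o Y hY 1 3, o Y hY 2 3] at x0 x1 x2 x3 y0 y1 y2 y3
  by_contra c
  refine h0 (funext fun i => mul_left_cancel₀ c ?_)
  unfold bt
  fin_cases i <;> simp only [Fin.zero_eta, Fin.mk_one, Fin.reduceFinMk, Pi.zero_apply, mul_zero]
  · linear_combination -X 2 3 * y1 + X 1 3 * y2 - X 1 2 * y3 - Y 2 3 * x1 + Y 1 3 * x2 - Y 1 2 * x3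
  · linear_combination X 2 3 * y0 - X 0 3 * y2 + X 0 2 * y3 + Y 2 3 * x0 - Y 0 3 * x2 + Y 0 2 * x3
  · linear_combination -X 1 3 * y0 + X 0 3 * y1 - X 0 1 * y3 - Y 1 3 * x0 + Y 0 3 * x1 - Y 0 1 * x3
  · linear_combination X 1 2 * y0 - X 0 2 * y1 + X 0 1 * y2 + Y 1 2 * x0 - Y 0 2 * x1 + Y 0 1 * x2

/-- `X` permutes the seven forms -/
def Act (a : F) (X : M4 F) (σ : Fin 7 → Fin 7) : Prop :=
  ∃ c : F, c ≠ 0 ∧ ∀ i, Xᵀ * Bm a i * X = c • Bm a (σ i)

theorem Act.one : Act a 1 id := ⟨1, one_ne_zero, by simp⟩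

theorem Act.mul (h : Act a X σ) (h' : Act a Y τ) : Act a (X * Y) (τ ∘ σ) := by
  obtain ⟨c, c0, h⟩ := h
  obtain ⟨d, d0, h'⟩ := h'
  refine ⟨c * d, mul_ne_zero c0 d0, fun i => ?_⟩
  rw [transpose_mul, Function.comp, ← smul_smul, ← h', ← Matrix.smul_mul, ← Matrix.mul_smul, ← h]
  simp only [mul_assoc]

theorem Act.pow (h : Act a X σ) (k : ℕ) : Act a (X ^ k) (σ^[k]) := by
  induction k with
  | zero => simpa using Act.one
  | succ k ih => rw [pow_succ, Function.iterate_succ']; exact ih.mul h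

theorem Act.smul (h : Act a X σ) {z : F} (hz : z ≠ 0) : Act a (z • X) σ := by
  obtain ⟨c, c0, h⟩ := h
  exact ⟨z * z * c, by simp [hz, c0], fun i => by simp [h, smul_smul, mul_assoc]⟩

theorem third : ∀ i j k : Fin 7, ∃ m, i ≠ m ∧ j ≠ m ∧ k ≠ m := by decide

section
variable (h2 : (2 : F) ≠ 0) (h7 : (7 : F) ≠ 0) (ha : a * a = a - 2)
include h2 ha

theorem a0 : a ≠ 0 := fun e => h2 (by rw [e] at ha; linear_combination ha)

include h7

theorem Act.uniq (h : Act a X σ) (h' : Act a X τ) : σ = τ := by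
  obtain ⟨c, c0, h⟩ := h
  obtain ⟨d, d0, h'⟩ := h'
  funext i
  by_contra k
  obtain ⟨m, m1, m2, -⟩ := third (σ i) (τ i) i
  have e := fun m => congrArg (bt · (Bm a m)) ((h i).symm.trans (h' i))
  have e1 := e m
  have e2 := e (σ i)
  simp only [bt_smul, bt_B ha, m1, m2, Ne.symm k, if_true, if_false] at e1 e2
  exact mul_ne_zero (mul_ne_zero h7 c0) (a0 h2 ha) (by linear_combination e2 - e1)

theorem Act.noTv {v φ : V4 F} (hv : v ≠ 0) (hφ : φ ≠ 0) (h0 : φ ⬝ᵥ v = 0)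
    (h : Act a (1 + vecMulVec v φ) σ) : False := by
  obtain ⟨c, c0, h⟩ := h
  have z : ∀ Z : M4 F, Zᵀ = -Z → v ᵥ* Z = -(Z *ᵥ v) ∧ (Z *ᵥ v) ⬝ᵥ v = 0 := fun Z hZ => by
    have e : v ᵥ* Z = -(Z *ᵥ v) := by rw [← mulVec_transpose, hZ, neg_mulVec]
    refine ⟨e, mul_left_cancel₀ h2 ?_⟩
    have := dotProduct_mulVec v Z v
    rw [e, neg_dotProduct, dotProduct_comm] at this
    linear_combination this
  have f : ∀ Z : M4 F, Zᵀ = -Z → (1 + vecMulVec v φ)ᵀ * Z * (1 + vecMulVec v φ) =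
      Z + (vecMulVec (Z *ᵥ v) φ - vecMulVec φ (Z *ᵥ v)) := fun Z hZ => by
    simp [mul_add, add_mul, mul_vecMulVec, vecMulVec_mul, vecMulVec_mul_vecMulVec, (z Z hZ).1,
      (z Z hZ).2, sub_eq_add_neg, add_assoc, add_comm, add_left_comm, neg_mulVec, vecMulVec_mulVec]
  have f2 : ∀ i, Bm a i + c ^ 2 • Bm a (σ (σ i)) = (2 * c) • Bm a (σ i) := fun i => by
    have e := f (vecMulVec (Bm a i *ᵥ v) φ - vecMulVec φ (Bm a i *ᵥ v)) (by simp)
    have e1 := congrArg (fun Z => (1 + vecMulVec v φ)ᵀ * Z * (1 + vecMulVec v φ))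
      ((h i).symm.trans (f _ (Bm_T i)))
    have e2 := (h i).symm.trans (f _ (Bm_T i))
    simp only [sub_mulVec, vecMulVec_mulVec, h0, (z _ (Bm_T i)).2, MulOpposite.op_zero, zero_smul,
      sub_self, zero_vecMulVec, vecMulVec_zero, add_zero] at e
    generalize 1 + vecMulVec v φ = t at *
    simp only [Matrix.mul_smul, Matrix.smul_mul, h, mul_add, add_mul, e] at e1
    linear_combination (norm := module) e1 - e2
  have a0 := a0 h2 ha
  obtain rfl : c = 1 := by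
    obtain ⟨m, m1, m2, m3⟩ := third 0 (σ 0) (σ (σ 0))
    have e := congrArg (bt · (Bm a m)) (f2 0)
    simp only [bt_add, bt_smul, bt_B ha, m1, m2, m3, if_false] at e
    exact sub_eq_zero.1 (pow_eq_zero_iff two_ne_zero |>.1 (mul_left_cancel₀ a0
      (by linear_combination -e)))
  have fx : ∀ i, σ i = i := fun i => by
    by_contra k
    have e := congrArg (bt · (Bm a i)) (f2 i)
    simp only [bt_add, bt_smul, bt_B ha, k, if_true, if_false] at e
    split_ifs at e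
    · exact mul_ne_zero (mul_ne_zero h2 h7) a0 (by linear_combination e)
    · exact mul_ne_zero h7 a0 (by linear_combination e)
  obtain ⟨r, hr⟩ := Function.ne_iff.1 hφ
  replace hr : φ r ≠ 0 := hr
  obtain ⟨l, hl⟩ : ∃ l : Fin 7 → F, ∀ i, Bm a i *ᵥ v = l i • φ := by
    refine ⟨fun i => (Bm a i *ᵥ v) r / φ r, fun i => funext fun j => ?_⟩
    have e := (h i).symm.trans (f _ (Bm_T i))
    rw [fx, one_smul, left_eq_add, sub_eq_zero] at e
    have := congrFun (congrFun e j) r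
    simp only [vecMulVec_apply] at this
    simp only [Pi.smul_apply, smul_eq_mul]
    field_simp
    linear_combination this
  have key : ∀ (x y w : F) (i j k : Fin 7), x * l i + y * l j + w * l k = 0 →
      (x • Bm a i + y • Bm a j + w • Bm a k)ᵀ = -(x • Bm a i + y • Bm a j + w • Bm a k) ∧
      (x • Bm a i + y • Bm a j + w • Bm a k) *ᵥ v = 0 := fun x y w i j k e =>
    ⟨by simp [Bm_T]; abel, by
      simp only [add_mulVec, smul_mulVec, hl, smul_smul, ← add_smul, e, zero_smul]⟩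
  have ne : ∀ i j, i ≠ j → l i ≠ l j := fun i j hij e => by
    have k := key 1 (-1) 0 i j i (by simp [e])
    have := btz h2 k.1 k.1 hv k.2 k.2
    simp only [bt_add, bt_add', bt_smul, bt_smul', bt_B ha, hij, hij.symm, if_true, if_false] at this
    exact mul_ne_zero (mul_ne_zero h2 h7) a0 (by linear_combination this)
  have k1 := key (l 1 - l 2) (l 2 - l 0) (l 0 - l 1) 0 1 2 (by ring)
  have k2 := key (l 3 - l 4) (l 4 - l 0) (l 0 - l 3) 0 3 4 (by ring)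
  have := btz h2 k1.1 k2.1 hv k1.2 k2.2
  simp only [bt_add, bt_add', bt_smul, bt_smul', bt_B ha, Fin.reduceEq, if_true, if_false] at this
  exact mul_ne_zero (mul_ne_zero (mul_ne_zero h7 a0) (sub_ne_zero.2 (ne 1 2 (by decide))))
    (sub_ne_zero.2 (ne 3 4 (by decide))) (by linear_combination this)

end

/-- twice a three-cycle -/
def S2 (a : F) : M4 F := mx (-2) 0 2 (2 * a - 2) 0 0 (2 * a - 2) (-2) (1 - a) (1 + a) (a - 3) (-1 - a)
  (1 + a) (a - 1) (-1 - a) (1 - a)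

section
variable (ha : a * a = a - 2)
include ha

theorem actG : Act a (G0 a) ![1, 2, 3, 4, 5, 6, 0] := ⟨1, one_ne_zero, fun i => by
  fin_cases i <;> simp only [Bm, G0, al, Fin.zero_eta, Fin.mk_one, Fin.reduceFinMk, cons_val] <;>
    mxs <;> gr⟩

theorem actN : Act a (N0 a) ![0, 4, 1, 5, 2, 6, 3] := ⟨1, one_ne_zero, fun i => by
  fin_cases i <;> simp only [Bm, N0, al, Fin.zero_eta, Fin.mk_one, Fin.reduceFinMk, cons_val] <;>
    mxs <;> gr⟩

theorem actT : Act a (T0 a (-1)) ![0, 4, 2, 3, 1, 6, 5] := ⟨1, one_ne_zero, fun i => by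
  fin_cases i <;> simp only [Bm, T0, al, Fin.zero_eta, Fin.mk_one, Fin.reduceFinMk, cons_val] <;>
    mxs <;> gr⟩

theorem actS (h2 : (2 : F) ≠ 0) : Act a (S2 a) ![2, 0, 1, 3, 4, 5, 6] :=
  ⟨2 * 2, mul_ne_zero h2 h2, fun i => by
  fin_cases i <;> simp only [Bm, S2, al, Fin.zero_eta, Fin.mk_one, Fin.reduceFinMk, cons_val] <;>
    mxs <;> gr⟩

theorem detS : (S2 a).det = 2 ^ 4 := by unfold S2; mxs; gr

end

theorem overgp [Finite F] (h2 : (2 : F) ≠ 0) (h7 : (7 : F) ≠ 0) (ha : a * a = a - 2) {g n t C s : G4 F}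
    (L : Gen H g n t) (eg : g.1 * C = C * G0 a) (en : n.1 * C = C * N0 a)
    (et : t.1 * C = C * T0 a (-1)) (es : s.1 * C = C * (2⁻¹ : F) • S2 a) {K : Subgroup (G4 F)}
    (hK : IsMaximalIn K H) (hs : s ∈ K)
    (tv : ∃ x ∈ K, ∃ v φ : V4 F, v ≠ 0 ∧ φ ≠ 0 ∧ φ ⬝ᵥ v = 0 ∧ x.1 = 1 + vecMulVec v φ) : False := by
  let ψ : G4 F →* M4 F := cj C (Units.coeHom _)
  let M : Subgroup (G4 F) := sg (fun x => ∃ σ, Act a (ψ x) σ) ⟨_, by rw [map_one]; exact Act.one⟩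
    fun x y ⟨_, h⟩ ⟨_, h'⟩ => ⟨_, by rw [map_mul]; exact h.mul h'⟩
  have q : ∀ (x : G4 F) (Y : M4 F), x.1 * C = C * Y → ψ x = Y := fun x Y e =>
    cj_eq (α := Units.coeHom (M4 F)) (g := x) e
  have ag := q _ _ eg ▸ actG ha
  have an := q _ _ en ▸ actN ha
  have at' := q _ _ et ▸ actT ha
  have as := q _ _ es ▸ (actS ha h2).smul (inv_ne_zero h2)
  have sm : ∀ (x y : G4 F) (z : F) (σ : Fin 7 → Fin 7), x.1 = z • y.1 → Act a (ψ y) σ →
      Act a (ψ x) σ := fun x y z σ e h => by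
    have : ψ x = z • ψ y := by simp [ψ, cj_ap, e]
    rw [this]
    exact h.smul (by rintro rfl; exact x.ne_zero (by simpa using e))
  have key : ∀ x ∈ H, ∃ σ, Act a (ψ x) σ ∧ σ ≠ ![2, 0, 1, 3, 4, 5, 6] := fun x hx => by
    obtain ⟨i, j, z, e | ⟨k, e⟩⟩ := L.bru x hx
    · refine ⟨_, sm _ _ _ _ e (by rw [map_mul, map_pow, map_pow]; exact (ag.pow _).mul (an.pow _)), ?_⟩
      clear e; revert i j; decide
    · refine ⟨_, sm _ _ _ _ e (by
        simp only [map_mul, map_pow]; exact (((ag.pow _).mul (an.pow _)).mul at').mul (ag.pow _)), ?_⟩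
      clear e; revert i j k; decide
  rcases hK.2 (M ⊓ K) (le_inf (fun x hx => (key x hx).imp fun _ h => h.1) hK.1.le) inf_le_right with
    e | e
  · obtain ⟨σ, h, h'⟩ := key s (e ▸ ⟨⟨_, as⟩, hs⟩)
    exact h' (h.uniq h2 h7 ha as)
  obtain ⟨x, hx, v, φ, v0, φ0, h0, e'⟩ := tv
  obtain ⟨σ, h⟩ : x ∈ M := (e.ge hx).1
  refine Act.noTv h2 h7 ha (v := (C⁻¹).1 *ᵥ v) (φ := φ ᵥ* C.1) (σ := σ)
    (fun k => v0 ((H7.val_mulVec_eq_zero _).1 k))
    (fun k => φ0 (by simpa using congrArg (· ᵥ* (C⁻¹).1) k))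
    (by rw [← dotProduct_mulVec, mulVec_mulVec, Units.mul_inv, one_mulVec, h0]) ?_
  convert h using 1
  simp [ψ, cj_ap, e', mul_add, add_mul, mul_vecMulVec, vecMulVec_mul]

end Cfsg.Agent.H9.B4
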